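import Cfsg.Agent.Lib.Helper33.GM22a
import Cfsg.Agent.Lib.Helper33.C100

set_option autoImplicit false

namespace Cfsg.Agent.Lib.Helper33

open Cfsg

noncomputable def c22B : ℕ := 0x90009000900070007000900090007000900070007000700090009000900090009000900070007000700070007000b0009000700070009000b00070007000b00070009000900070007000900070007000700070007000900090009000b000700080008000800080006000a00080006000800080006000800080006000800080008000800080006000600080006000c
noncomputable def c22Cc : ℕ := 0x2a0829e82a18
noncomputable def c22Rts : ℕ := 0x0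
noncomputable def c22Mem_0 : ℕ := 0x4a000490004800036000340003300032000310002e0002d0002800024000230001e0001c0001700016000150000e0000c0000800007
noncomputable def c22Mem : ℕ := c22Mem_0
noncomputable def c22R_0 : ℕ := 0x71000050005100009000110000000050000070005100010000410000f000310000b000330000b0006000008000300000a00021000130002000002000410000e0005000004000400000c00080000030006300012000400000e000700000d000100000000061000140000000000
noncomputable def c22R : ℕ := c22R_0
noncomputable def c22Nd (t : ℕ) : ℕ := c100Nd (get3 c22Mem 20 t)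

set_option maxRecDepth 1000000 in
theorem c22_pre : prefixOK c100B c100Cc 2 c22B c22Cc 3 = true := by decide +kernel
set_option maxRecDepth 1000000 in
theorem c22_base : baseOK c22B 3 = true := by decide +kernel
set_option maxRecDepth 1000000 in
theorem c22_fix : fixOK gM22a (2 * 2) c22B 3 = true := by decide +kernel
set_option maxRecDepth 1000000 in
theorem c22_rt : Nat.blt (fld20 c22Rts 0) 22 = true := by decide +kernel
set_option maxRecDepth 1000000 in
theorem c22_cnt' : cntChunks (fun k => (fun _ => true) k && condOK c22B c22Cc 3 (c100Nd k)) 100 1 = 22 := by decide +kernel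
theorem c22_cnt : cntBelow (fun k => (fun _ => true) k && condOK c22B c22Cc 3 (c100Nd k)) 100 = 22 := by
  rw [show (100 : ℕ) = 100 * 1 by norm_num, ← cntChunks_eq]
  exact c22_cnt'
set_option maxRecDepth 1000000 in
theorem c22_mem : allBelow (memOK c100Nd (fun _ => true) 100 c22B c22Cc 3 c22Mem 22) 22 = true := by decide +kernel
set_option maxRecDepth 1000000 in
theorem c22_nodes : allBelow (cNode c22Nd (fun _ => true) gM22a c22R c22Rts (2 * 2) 1 22) 22 = true := by decide +kernel

theorem c22_enum : LEnum (Cl c22B c22Cc 3) c22Nd 22 (fun _ => true) :=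
  c100_enum.cls c22B c22Cc 3 c22Mem 22 c22_pre c22_base c22_cnt c22_mem

theorem c22_tree : ∀ t < 22, ∃ g ∈ fixSub c22B 3, g • lv (c22Nd t) = lv (c22Nd (fld20 c22Rts 0)) :=
  c22_enum.tree gM22a c22R c22Rts 2 c22B 3 gM22a_ok c22_base c22_fix c22_rt c22_nodes

theorem c22_b0 : f384 c22B 0 = bU0 := by decide +kernel
theorem c22_b1 : f384 c22B 1 = bWH := by decide +kernel
theorem c22_b2 : f384 c22B 2 = bXH := by decide +kernel
theorem c22_c0 : (dg c22Cc 0 : ℤ) - 10752 = 24 := by
  have : dg c22Cc 0 = 10776 := by decide +kernel
  rw [this]; norm_num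
theorem c22_c1 : (dg c22Cc 1 : ℤ) - 10752 = -24 := by
  have : dg c22Cc 1 = 10728 := by decide +kernel
  rw [this]; norm_num
theorem c22_c2 : (dg c22Cc 2 : ℤ) - 10752 = 8 := by
  have : dg c22Cc 2 = 10760 := by decide +kernel
  rw [this]; norm_num

theorem c22_cls : OrbCls ↥Co0 (C3 (24) (-24) (8)) ((lv bU0, lv bWH), lv bXH) 22 :=
  mkCls3 c22_enum c22_b0 c22_b1 c22_b2 c22_c0 c22_c1 c22_c2 _ c22_tree

end Cfsg.Agent.Lib.Helper33
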