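import Cfsg.Agent.Lib.Helper33.H1c

set_option autoImplicit false
set_option linter.unusedSectionVars false
set_option maxRecDepth 100000
open scoped MatrixGroups commutatorElement
open Cfsg

namespace Cfsg.Agent.Lib.Helper33.H1.M4

abbrev I := ((Fin 1 ⊕ Fin 1) ⊕ Fin 2)
abbrev Qf : (I → ZMod 2) → ZMod 2 := Cfsg.quadFormMinus 1 (ZMod 2) 1 1
def ix : I → ℕ := Sum.elim (Sum.elim (fun i => i.val) (fun i => 1 + i.val)) (fun i => 2 + i.val)
def qB (n : ℕ) : Bool := Nat.testBit 30584 n

theorem setup : Setup Qf ix 4 qB where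
  card := by simp
  inj0 := by decide +kernel
  hQ := by decide +kernel
  ixinj := by decide

def mA : ℕ := 18983
def mAi : ℕ := 26667
def mB : ℕ := 55323
def mBi : ℕ := 20082
def mR : ℕ := 50209
def mRi : ℕ := 50209
def mAB : ℕ := 38001
def mABA : ℕ := 14719
def m1 : ℕ := 40215
def mCR : ℕ := 59943
def mCRC : ℕ := 36395
def m2 : ℕ := 28203
def mW : ℕ := 52136

theorem exmA : ∃ g : ↥(isometryGroup (ZMod 2) Qf), Rep ix 4 g mA :=
  exists_rep setup mA mAi (by decide +kernel) (by decide +kernel) (by decide +kernel)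

theorem exmB : ∃ g : ↥(isometryGroup (ZMod 2) Qf), Rep ix 4 g mB :=
  exists_rep setup mB mBi (by decide +kernel) (by decide +kernel) (by decide +kernel)

theorem exmR : ∃ g : ↥(isometryGroup (ZMod 2) Qf), Rep ix 4 g mR :=
  exists_rep setup mR mRi (by decide +kernel) (by decide +kernel) (by decide +kernel)

def steps : List (ℕ × ℕ × ℕ × ℕ) := [
  (1, 1, 1, 44274),
  (1, 1, 2, 51759),
  (0, 3, 1, 33825),
  (0, 2, 3, 14839),
  (0, 0, 5, 19825),
  (1, 0, 6, 55473),
  (0, 4, 5, 59058),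
  (0, 0, 5, 34225),
  (1, 0, 9, 34225),
  (0, 8, 8, 22207),
  (0, 10, 0, 23793),
  (1, 0, 12, 55665),
  (0, 1, 7, 51233),
  (1, 0, 14, 19489)]

def mats : List ℕ := [
  19489,
  51233,
  55665,
  23793,
  22207,
  34225,
  34225,
  59058,
  55473,
  19825,
  14839,
  33825,
  51759,
  44274,
  28203,
  40215]

theorem slp_ok : slpOK 4 steps [m2, m1] = true := by decide +kernel

theorem slp_out : slpOut steps [m2, m1] = mats := by decide +kernel

def levels : List (ℕ × List ℕ) := [
  (1, [0, 33825, 40215, 0, 0, 0, 0, 44274, 0, 0, 0, 51759, 0, 0, 0, 28203]),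
  (2, [0, 0, 33825, 0, 0, 0, 0, 55473, 0, 0, 0, 19825, 0, 0, 0, 55665]),
  (4, [0, 0, 0, 0, 33825, 0, 0, 0, 19489, 0, 0, 0, 51233, 0, 0, 0])]

theorem chain_ok : chainOK 4 qB mats [] levels = true := by decide +kernel

def pEnd : List ℕ := [4, 2, 1]

theorem chain_end : chainEnd [] levels = pEnd := by decide +kernel

theorem lev_R : levelR 4 qB pEnd 8 12 mR = true := by decide +kernel

def rels : List (List Bool) := [[true, true, true], [false, true, true, false, true, true]]

theorem rel_ok : relOK 4 m1 m2 rels = true := by decide +kernel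

theorem fpf_ok : fpfOK 4 m1 mW = true := by decide +kernel

theorem main (f : ↥(Omega (ZMod 2) Qf) → I → ZMod 2)
    (hf : ∀ g h : ↥(Omega (ZMod 2) Qf), f (g * h) = f g +
      Matrix.mulVec (((g : ↥(isometryGroup (ZMod 2) Qf)) : GL I (ZMod 2)) : Matrix I I (ZMod 2))
        (f h)) :
    ∃ v : I → ZMod 2, ∀ g : ↥(Omega (ZMod 2) Qf), f g =
      Matrix.mulVec (((g : ↥(isometryGroup (ZMod 2) Qf)) : GL I (ZMod 2)) : Matrix I I (ZMod 2)) v
        - v := by
  obtain ⟨a, ha⟩ := exmA
  obtain ⟨b, hb⟩ := exmB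
  obtain ⟨r, hr⟩ := exmR
  have hai : Rep ix 4 a⁻¹ mAi := ha.inv (by decide +kernel)
  have hbi : Rep ix 4 b⁻¹ mBi := hb.inv (by decide +kernel)
  have hri : Rep ix 4 r⁻¹ mRi := hr.inv (by decide +kernel)
  have h1 : Rep ix 4 ⁅a, b⁆ m1 := by
    rw [commutatorElement_def]
    exact (((ha.mul hb (M := mAB) (by decide +kernel)).mul hai (M := mABA) (by decide +kernel)).mul hbi
      (by decide +kernel))
  have h2 : Rep ix 4 ⁅a, r⁆ m2 := by
    rw [commutatorElement_def]
    exact (((ha.mul hr (M := mCR) (by decide +kernel)).mul hai (M := mCRC) (by decide +kernel)).mul hri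
      (by decide +kernel))
  let g1 : ↥(Omega (ZMod 2) Qf) :=
    ⟨⁅a, b⁆, Subgroup.commutator_mem_commutator (Subgroup.mem_top _) (Subgroup.mem_top _)⟩
  let g2 : ↥(Omega (ZMod 2) Qf) :=
    ⟨⁅a, r⁆, Subgroup.commutator_mem_commutator (Subgroup.mem_top _) (Subgroup.mem_top _)⟩
  let K : Subgroup ↥(isometryGroup (ZMod 2) Qf) := Subgroup.closure {⁅a, b⁆, ⁅a, r⁆}
  have hacc : ∀ M ∈ [m2, m1], ∃ t ∈ K, Rep ix 4 t M := by
    intro M hM
    simp only [List.mem_cons, List.not_mem_nil, or_false] at hM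
    rcases hM with rfl | rfl
    · exact ⟨_, Subgroup.subset_closure (by simp), h2⟩
    · exact ⟨_, Subgroup.subset_closure (by simp), h1⟩
  have hm : ∀ M ∈ mats, ∃ t ∈ K, Rep ix 4 t M := by
    have := slp_sound K steps [m2, m1] hacc slp_ok
    rwa [slp_out] at this
  have hend : ∀ g, Fix ix (chainEnd [] levels) g → g ∈ K ∨ g * r ∈ K := by
    intro g hg
    rw [chain_end] at hg
    rcases fix_cons_R setup (by decide) lev_R hr hg with h | h
    · left
      rw [eq_one_of_fix setup (by decide) h]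
      exact K.one_mem
    · right
      have h3 : r * g = 1 := eq_one_of_fix setup (by decide) h
      rw [eq_inv_of_mul_eq_one_right h3, inv_mul_cancel]
      exact K.one_mem
  have hall : ∀ g, g ∈ K ∨ g * r ∈ K := fun g =>
    chain setup K r mats hm levels [] (by simp) chain_ok hend g (by intro x hx; simp at hx)
  exact h1_zero setup g1 g2 m1 m2 mW h1 h2 fpf_ok rels rel_ok (comm_le K r hall) f hf

end Cfsg.Agent.Lib.Helper33.H1.M4
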