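import Cfsg.Agent.Lib.Helper33.TrioData
import Cfsg.Agent.Lib.Helper33.SextetData
import Cfsg.Agent.Lib.Helper33.DodData
import Cfsg.Agent.Lib.Helper33.TriadData

set_option autoImplicit false

namespace Cfsg.Agent.Lib.Helper33

open Cfsg
open scoped Pointwise

/-- edge test for families of masks -/
noncomputable def mEdge (tab P k j _aux : ℕ) : Bool := Nat.beq (permMask P (fld24 tab k)) (fld24 tab j)

theorem oct_tab : TabFam octads (fun k => unmask (fld24 octTab k)) 759 (mEdge octTab) :=
  maskTabFam octads octTab 759 (fun _ hg _ hy => smul_mem_octads hg hy)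
    (codeFam_spec oct_fam).1 (codeFam_spec oct_fam).2.1 (codeFam_spec oct_fam).2.2

theorem dod_tab : TabFam dodecads (fun k => unmask (fld24 dodTab k)) 2576 (mEdge dodTab) :=
  maskTabFam dodecads dodTab 2576 (fun _ hg _ hy => smul_mem_dodecads hg hy)
    (codeFam_spec dod_fam).1 (codeFam_spec dod_fam).2.1 (codeFam_spec dod_fam).2.2

theorem sx_tab : TabFam sextets (objM sxTab 6) 1771 (sxEdge sxTab) := sx_table.tabFam

/-- the permutation coded by `P` fixes the set with mask `m` -/
noncomputable def fixMask (m P _x : ℕ) : Bool := Nat.beq (permMask P m) m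

theorem fixMask_spec (m P x : ℕ) (hP : inM24 P = true) (h : fixMask m P x = true) :
    permOf P • unmask m = unmask m := by
  rw [smul_unmask (isPerm_of_inM24 hP), Nat.eq_of_beq_eq_true h]

/-- the permutation coded by `P` fixes or swaps the set with mask `m` and its complement -/
noncomputable def fixPair (m P _x : ℕ) : Bool :=
  Nat.beq (permMask P m) m || Nat.beq (permMask P m) (Nat.xor m 0xFFFFFF)

theorem smul_pair (g : Equiv.Perm GolayPt) (a : Finset GolayPt) :
    g • ({a, Finset.univ \ a} : Finset (Finset GolayPt)) = {g • a, Finset.univ \ (g • a)} := by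
  have h1 : g • ({a, Finset.univ \ a} : Finset (Finset GolayPt)) =
      ({a, Finset.univ \ a} : Finset (Finset GolayPt)).image (fun t => g • t) := rfl
  rw [h1, Finset.image_insert, Finset.image_singleton, Finset.smul_finset_sdiff, Finset.smul_finset_univ]

theorem fixPair_spec (m P x : ℕ) (hP : inM24 P = true) (h : fixPair m P x = true) :
    permOf P • ({unmask m, Finset.univ \ unmask m} : Finset (Finset GolayPt)) =
      {unmask m, Finset.univ \ unmask m} := by
  rw [smul_pair, smul_unmask (isPerm_of_inM24 hP)]
  rw [fixPair, Bool.or_eq_true] at h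
  rcases h with h | h
  · rw [Nat.eq_of_beq_eq_true h]
  · rw [Nat.eq_of_beq_eq_true h]
    have e : unmask (Nat.xor m 0xFFFFFF) = Finset.univ \ unmask m := by
      have := unmask_compl m
      rw [Finset.compl_eq_univ_sdiff] at this
      exact this
    have e2 : Finset.univ \ (Finset.univ \ unmask m) = unmask m := by
      ext p; simp
    rw [e, e2, Finset.pair_comm]

theorem objM_two (tab a b : ℕ) (h0 : fld24 tab (Nat.add (Nat.mul 2 0) 0) = a)
    (h1 : fld24 tab (Nat.add (Nat.mul 2 0) 1) = b) : objM tab 2 0 = {unmask a, unmask b} := by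
  ext t
  rw [mem_objM, Finset.mem_insert, Finset.mem_singleton]
  constructor
  · rintro ⟨i, hi, rfl⟩
    interval_cases i
    · left; rw [h0]
    · right; rw [h1]
  · rintro (rfl | rfl)
    · exact ⟨0, by norm_num, by rw [h0]⟩
    · exact ⟨1, by norm_num, by rw [h1]⟩

/-- number of members of a family meeting a given set -/
def relNe (Y : Finset GolayPt) (S : Finset (Finset GolayPt)) : ℕ := (S.filter fun t => (t ∩ Y).Nonempty).card

theorem relNe_smul (g : Equiv.Perm GolayPt) (Y : Finset GolayPt) (S : Finset (Finset GolayPt)) :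
    relNe (g • Y) (g • S) = relNe Y S := by
  unfold relNe
  have h1 : g • S = S.image (fun t => g • t) := rfl
  rw [h1, Finset.filter_image, Finset.card_image_of_injective _ (MulAction.injective g)]
  congr 1
  apply Finset.filter_congr
  intro t _
  rw [← Finset.smul_finset_inter, Finset.smul_finset_nonempty]

theorem relNe_objM {a tab m k : ℕ}
    (h : ∀ i < m, ∀ j < m, fld24 tab (Nat.add (Nat.mul m k) i) = fld24 tab (Nat.add (Nat.mul m k) j) → i = j) :
    relNe (unmask a) (objM tab m k) =
      cntBelow (fun i => !(Nat.beq (Nat.land (fld24 tab (Nat.add (Nat.mul m k) i)) a) 0)) m := by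
  unfold relNe objM
  rw [Finset.filter_image, Finset.card_image_of_injOn, cntBelow_eq]
  · congr 1
    apply Finset.filter_congr
    intro i _
    rw [← unmask_and, Finset.nonempty_iff_ne_empty, ← unmask_zero, Bool.not_eq_true']
    constructor
    · intro h1
      by_contra h2
      rw [Bool.not_eq_false] at h2
      apply h1
      have : fld24 tab (Nat.add (Nat.mul m k) i) &&& a = 0 := Nat.eq_of_beq_eq_true h2
      rw [this]
    · intro h1 h2
      have h3 := unmask_inj (lt_of_le_of_lt Nat.and_le_left (fld24_lt _ _)) (by norm_num) h2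
      have : Nat.land (fld24 tab (Nat.add (Nat.mul m k) i)) a = 0 := h3
      rw [this] at h1
      exact absurd h1 (by decide)
  · intro x hx y hy hxy
    have hx' := (Finset.mem_filter.1 (Finset.mem_coe.1 hx)).1
    have hy' := (Finset.mem_filter.1 (Finset.mem_coe.1 hy)).1
    exact h x (Finset.mem_range.1 hx') y (Finset.mem_range.1 hy')
      (unmask_inj (fld24_lt _ _) (fld24_lt _ _) hxy)

end Cfsg.Agent.Lib.Helper33
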