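import Mathlib

set_option autoImplicit false

namespace Cfsg.Agent.Lib.Helper33

/-- `Q` behaves like an extraspecial 2-group with centre `{1, z}` (as a subgroup of `G`). -/
structure XS {G : Type*} [Group G] (Q : Subgroup G) (z : G) : Prop where
  zmem : z ∈ Q
  zsq : z * z = 1
  zne : z ≠ 1
  zcen : ∀ y ∈ Q, z * y = y * z
  comm : ∀ x ∈ Q, ∀ y ∈ Q, x * y = y * x ∨ x * y = z * (y * x)
  cen : ∀ c ∈ Q, (∀ y ∈ Q, c * y = y * c) → c = 1 ∨ c = z

namespace XS

variable {G : Type*} [Group G] {Q : Subgroup G} {z : G}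

theorem comm' (h : XS Q z) {x y : G} (hx : x ∈ Q) (hy : y ∈ Q) (hn : x * y ≠ y * x) :
    x * y = z * (y * x) := (h.comm x hx y hy).resolve_left hn

/-- the centraliser in `Q` of a non-central element has index two -/
theorem relIndex_centralizer (h : XS Q z) {s : G} (hs : s ∈ Q) (hs1 : s ≠ 1) (hsz : s ≠ z) :
    (Q ⊓ Subgroup.centralizer {s}).relIndex Q = 2 := by
  have hnc : ∃ a ∈ Q, s * a ≠ a * s := by
    by_contra hcon
    push Not at hcon
    rcases h.cen s hs hcon with h1 | h1
    · exact hs1 h1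
    · exact hsz h1
  obtain ⟨a, ha, hsa⟩ := hnc
  have hsa' := h.comm' hs ha hsa
  rw [Subgroup.relIndex_eq_two_iff]
  refine ⟨a, ha, fun b hb => ?_⟩
  have mem_iff : ∀ y : G, y ∈ Q → (y ∈ Q ⊓ Subgroup.centralizer {s} ↔ s * y = y * s) := by
    intro y hy
    rw [Subgroup.mem_inf, Subgroup.mem_centralizer_singleton_iff]
    constructor
    · rintro ⟨_, h2⟩; exact h2.symm
    · intro h2; exact ⟨hy, h2.symm⟩
  rw [mem_iff _ (Q.mul_mem hb ha), mem_iff _ hb]
  have hzb := h.zcen b hb
  by_cases hsb : s * b = b * s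
  · right
    refine ⟨hsb, ?_⟩
    intro hcon
    -- s b a = b s a = b z a s
    have : s * (b * a) = z * (b * a * s) := by
      calc s * (b * a) = (s * b) * a := by group
        _ = b * (s * a) := by rw [hsb]; group
        _ = b * (z * (a * s)) := by rw [hsa']
        _ = (b * z) * (a * s) := by group
        _ = (z * b) * (a * s) := by rw [hzb]
        _ = z * (b * a * s) := by group
    rw [hcon] at this
    exact h.zne (by simpa using this.symm)
  · left
    refine ⟨?_, hsb⟩
    have hsb' := h.comm' hs hb hsb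
    calc s * (b * a) = (s * b) * a := by group
      _ = z * (b * (s * a)) := by rw [hsb']; group
      _ = z * (b * (z * (a * s))) := by rw [hsa']
      _ = z * ((b * z) * (a * s)) := by group
      _ = z * ((z * b) * (a * s)) := by rw [hzb]
      _ = (z * z) * (b * a * s) := by group
      _ = b * a * s := by rw [h.zsq, one_mul]

/-- a subgroup of `Q` centralising a subgroup of index two has order at most four -/
theorem card_le_four (h : XS Q z) {R D : Subgroup G} (hidx : R.relIndex Q = 2)
    (hD : D ≤ Q) (hDR : ∀ d ∈ D, ∀ r ∈ R, d * r = r * d) : Nat.card D ≤ 4 := by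
  obtain ⟨a, ha, hab⟩ := Subgroup.relIndex_eq_two_iff.1 hidx
  -- an element of D commuting with `a` is central
  have haR : a ∉ R := by
    have := hab 1 Q.one_mem
    rw [one_mul] at this
    rcases this with ⟨_, h2⟩ | ⟨_, h2⟩
    · exact absurd R.one_mem h2
    · exact h2
  have hcen : ∀ d ∈ Q, (∀ r ∈ R, d * r = r * d) → d * a = a * d → d = 1 ∨ d = z := by
    intro d hd hdR hda
    apply h.cen d hd
    intro y hy
    by_cases hyR : y ∈ R
    · exact hdR y hyR
    · have h1 : y * a ∈ R := by
        rcases hab y hy with ⟨h2, _⟩ | ⟨h2, _⟩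
        · exact h2
        · exact absurd h2 hyR
      have h2 := hdR _ h1
      -- d y a = y a d = y d a
      have h3 : d * y * a = y * d * a := by
        calc d * y * a = d * (y * a) := by group
          _ = y * a * d := h2
          _ = y * (a * d) := by group
          _ = y * (d * a) := by rw [hda]
          _ = y * d * a := by group
      exact mul_right_cancel h3
  by_cases hall : ∀ d ∈ D, d * a = a * d
  · have hsub : (D : Set G) ⊆ {1, z} := by
      intro d hd
      rcases hcen d (hD hd) (hDR d hd) (hall d hd) with h1 | h1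
      · left; exact h1
      · right; exact h1
    have : Nat.card D ≤ ({1, z} : Set G).ncard := by
      rw [← _root_.Nat.card_coe_set_eq]
      exact Nat.card_mono (Set.toFinite _) hsub
    have h2 : ({1, z} : Set G).ncard ≤ 2 := Set.ncard_insert_le _ _ |>.trans (by simp)
    omega
  · push Not at hall
    obtain ⟨c, hc, hca⟩ := hall
    have hca' := h.comm' (hD hc) ha hca
    have hsub : (D : Set G) ⊆ {1, z, c, c * z} := by
      intro d hd
      by_cases hda : d * a = a * d
      · rcases hcen d (hD hd) (hDR d hd) hda with h1 | h1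
        · left; exact h1
        · right; left; exact h1
      · have hda' := h.comm' (hD hd) ha hda
        have hq : c⁻¹ * d ∈ Q := Q.mul_mem (Q.inv_mem (hD hc)) (hD hd)
        have h1 : (c⁻¹ * d) * a = a * (c⁻¹ * d) := by
          have e1 : c⁻¹ * (z * a) = a * c⁻¹ := by
            have : z * a * c = c * a := by rw [hca']; group
            calc c⁻¹ * (z * a) = c⁻¹ * (z * a * c) * c⁻¹ := by group
              _ = c⁻¹ * (c * a) * c⁻¹ := by rw [this]
              _ = a * c⁻¹ := by group
          calc (c⁻¹ * d) * a = c⁻¹ * (d * a) := by group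
            _ = c⁻¹ * (z * (a * d)) := by rw [hda']
            _ = (c⁻¹ * (z * a)) * d := by group
            _ = a * c⁻¹ * d := by rw [e1]
            _ = a * (c⁻¹ * d) := by group
        have h2 : ∀ r ∈ R, (c⁻¹ * d) * r = r * (c⁻¹ * d) := by
          intro r hr
          have e1 := hDR c hc r hr
          have e2 := hDR d hd r hr
          have e3 : c⁻¹ * r = r * c⁻¹ := by
            calc c⁻¹ * r = c⁻¹ * (r * c) * c⁻¹ := by group
              _ = c⁻¹ * (c * r) * c⁻¹ := by rw [e1]
              _ = r * c⁻¹ := by group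
          calc (c⁻¹ * d) * r = c⁻¹ * (d * r) := by group
            _ = c⁻¹ * (r * d) := by rw [e2]
            _ = (c⁻¹ * r) * d := by group
            _ = r * c⁻¹ * d := by rw [e3]
            _ = r * (c⁻¹ * d) := by group
        rcases hcen _ hq h2 h1 with h3 | h3
        · right; right; left
          have : d = c * (c⁻¹ * d) := by group
          rw [this, h3, mul_one]
        · right; right; right
          have : d = c * (c⁻¹ * d) := by group
          rw [Set.mem_singleton_iff, this, h3]
    have : Nat.card D ≤ ({1, z, c, c * z} : Set G).ncard := by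
      rw [← _root_.Nat.card_coe_set_eq]
      exact Nat.card_mono (Set.toFinite _) hsub
    have h2 : ({1, z, c, c * z} : Set G).ncard ≤ 4 := by
      refine (Set.ncard_insert_le _ _).trans ?_
      have := (Set.ncard_insert_le z ({c, c * z} : Set G))
      have h3 := (Set.ncard_insert_le c ({c * z} : Set G))
      simp only [Set.ncard_singleton] at h3
      omega
    omega

/-- transport along an automorphism -/
theorem map (h : XS Q z) (f : G ≃* G) : XS (Q.map f.toMonoidHom) (f z) where
  zmem := ⟨z, h.zmem, rfl⟩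
  zsq := by rw [← map_mul, h.zsq, map_one]
  zne := fun hc => h.zne (f.injective (by rw [hc, map_one]))
  zcen := by
    rintro _ ⟨y, hy, rfl⟩
    show f z * f y = f y * f z
    rw [← map_mul, ← map_mul, h.zcen y hy]
  comm := by
    rintro _ ⟨x, hx, rfl⟩ _ ⟨y, hy, rfl⟩
    show f x * f y = f y * f x ∨ f x * f y = f z * (f y * f x)
    rcases h.comm x hx y hy with h1 | h1
    · left; rw [← map_mul, ← map_mul, h1]
    · right; rw [← map_mul, ← map_mul, ← map_mul, h1]
  cen := by
    rintro _ ⟨c, hc, rfl⟩ hy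
    have : ∀ y ∈ Q, c * y = y * c := by
      intro y hyQ
      have := hy (f y) ⟨y, hyQ, rfl⟩
      apply f.injective
      rw [map_mul, map_mul]; exact this
    rcases h.cen c hc this with h1 | h1
    · left; show f c = 1; rw [h1, map_one]
    · right; show f c = f z; rw [h1]

end XS

/-- The key contradiction. -/
theorem keyK {G : Type*} [Group G] [Finite G] {z s : G} {Q Qs : Subgroup G}
    (hQ : XS Q z) (hQs : XS Qs s)
    (hcQ : Nat.card Q = 2 ^ 25)
    (hsQ : s ∈ Q) (hsz : s ≠ z)
    (hnorm : ∀ h ∈ Subgroup.centralizer {s}, ∀ q ∈ Qs, h * q * h⁻¹ ∈ Qs)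
    (h21 : ∀ P : Subgroup G, P ≤ Subgroup.centralizer {s} → IsPGroup 2 P →
      Nat.card P ≤ 2 ^ 21 * Nat.card (P ⊓ Qs : Subgroup G)) :
    z ∈ Qs := by
  by_contra hz
  set R : Subgroup G := Q ⊓ Subgroup.centralizer {s} with hR
  have hRi : R.relIndex Q = 2 := hQ.relIndex_centralizer hsQ hQs.zne hsz
  have hRc : Nat.card R = 2 ^ 24 := by
    have := Subgroup.relIndex_mul_relIndex (⊥ : Subgroup G) R Q bot_le inf_le_left
    rw [hRi, Subgroup.relIndex_bot_left, Subgroup.relIndex_bot_left, hcQ] at this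
    omega
  have hRp : IsPGroup 2 R := IsPGroup.of_card hRc
  have h1 := h21 R inf_le_right hRp
  have h2 : Nat.card (R ⊓ Qs : Subgroup G) ≤ 4 := by
    apply hQ.card_le_four hRi (inf_le_left.trans inf_le_left)
    intro d hd r hr
    have hdQ : d ∈ Q := hd.1.1
    have hrQ : r ∈ Q := hr.1
    rcases hQ.comm d hdQ r hrQ with h3 | h3
    · exact h3
    · exfalso
      apply hz
      have : z = d * (r * d⁻¹ * r⁻¹) := by
        calc z = z * (r * d) * (r * d)⁻¹ := by group
          _ = d * r * (r * d)⁻¹ := by rw [h3]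
          _ = d * (r * d⁻¹ * r⁻¹) := by group
      rw [this]
      exact Qs.mul_mem hd.2 (hnorm r hr.2 _ (Qs.inv_mem hd.2))
  rw [hRc] at h1
  omega

/-- the subgroup `Qs ⊓ C(z)` -/
theorem card_inf_centralizer {G : Type*} [Group G] [Finite G] {z s : G} {Qs : Subgroup G}
    (hQs : XS Qs s) (hcQs : Nat.card Qs = 2 ^ 25) (hsz : s ≠ z) (hz1 : z ≠ 1) (hzQs : z ∈ Qs) :
    Nat.card (Qs ⊓ Subgroup.centralizer {z} : Subgroup G) = 2 ^ 24 := by
  have hRi := hQs.relIndex_centralizer hzQs hz1 (Ne.symm hsz)
  have := Subgroup.relIndex_mul_relIndex (⊥ : Subgroup G) (Qs ⊓ Subgroup.centralizer {z}) Qs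
    bot_le inf_le_left
  rw [hRi, Subgroup.relIndex_bot_left, Subgroup.relIndex_bot_left, hcQs] at this
  omega

theorem inf_centralizer_le {G : Type*} [Group G] {z s : G} {Qs : Subgroup G}
    (hQs : XS Qs s) :
    (Qs ⊓ Subgroup.centralizer {z} : Subgroup G) ≤
      Subgroup.centralizer {z} ⊓ Subgroup.centralizer {s} := by
  intro x hx
  refine ⟨hx.2, ?_⟩
  show x ∈ Subgroup.centralizer {s}
  rw [Subgroup.mem_centralizer_singleton_iff]
  exact (hQs.zcen x hx.1).symm

theorem inf_centralizer_norm {G : Type*} [Group G] {z s : G} {Qs : Subgroup G}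
    (hnorm : ∀ h ∈ Subgroup.centralizer {s}, ∀ q ∈ Qs, h * q * h⁻¹ ∈ Qs) :
    ∀ h ∈ Subgroup.centralizer {z} ⊓ Subgroup.centralizer {s},
      ∀ n ∈ (Qs ⊓ Subgroup.centralizer {z} : Subgroup G),
        h * n * h⁻¹ ∈ (Qs ⊓ Subgroup.centralizer {z} : Subgroup G) := by
  intro h hh n hn
  exact ⟨hnorm h hh.2 n hn.1, Subgroup.mul_mem _ (Subgroup.mul_mem _ hh.1 hn.2)
    (Subgroup.inv_mem _ hh.1)⟩

/-- elements of `Q ⊓ Qs` commute -/
theorem comm_of_mem_both {G : Type*} [Group G] {z s : G} {Q Qs : Subgroup G}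
    (hQ : XS Q z) (hQs : XS Qs s) (hsz : s ≠ z) {a b : G} (ha : a ∈ Q) (ha' : a ∈ Qs)
    (hb : b ∈ Q) (hb' : b ∈ Qs) : a * b = b * a := by
  rcases hQ.comm a ha b hb with h1 | h1
  · exact h1
  · rcases hQs.comm a ha' b hb' with h2 | h2
    · exact h2
    · exfalso
      rw [h1] at h2
      exact hsz (mul_right_cancel h2).symm

/-- The key contradiction, second half. -/
theorem keyK2 {G : Type*} [Group G] [Finite G] {z s : G} {Q Qs : Subgroup G}
    (hQ : XS Q z) (hQs : XS Qs s)
    (hcQs : Nat.card Qs = 2 ^ 25) (hsz : s ≠ z) (hzQs : z ∈ Qs)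
    (hnorm : ∀ h ∈ Subgroup.centralizer {s}, ∀ q ∈ Qs, h * q * h⁻¹ ∈ Qs)
    (hCo2 : ∀ N : Subgroup G, N ≤ Subgroup.centralizer {z} ⊓ Subgroup.centralizer {s} →
      IsPGroup 2 N →
      (∀ h ∈ Subgroup.centralizer {z} ⊓ Subgroup.centralizer {s}, ∀ n ∈ N, h * n * h⁻¹ ∈ N) →
      N ≤ Q) : False := by
  have hc := card_inf_centralizer hQs hcQs hsz hQ.zne hzQs
  have hle := hCo2 _ (inf_centralizer_le hQs) (IsPGroup.of_card hc) (inf_centralizer_norm hnorm)
  have hRi := hQs.relIndex_centralizer hzQs hQ.zne (Ne.symm hsz)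
  have := hQs.card_le_four hRi inf_le_left (D := Qs ⊓ Subgroup.centralizer {z})
    (fun d hd r hr => comm_of_mem_both hQ hQs hsz (hle hd) hd.1 (hle hr) hr.1)
  rw [hc] at this
  omega

/-- a subgroup of a simple subgroup normalised by it is trivial or everything -/
theorem simple_sub_normal {K : Type*} [Group K] {H M : Subgroup K} (hH : IsSimpleGroup H)
    (hM : M ≤ H) (hn : ∀ h ∈ H, ∀ m ∈ M, h * m * h⁻¹ ∈ M) : M = ⊥ ∨ M = H := by
  have hnorm : (M.subgroupOf H).Normal := by
    constructor
    intro m hm h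
    exact hn h h.2 m hm
  rcases hH.eq_bot_or_eq_top_of_normal _ hnorm with h | h
  · left
    rw [Subgroup.subgroupOf_eq_bot] at h
    have := h.eq_bot
    rwa [inf_eq_left.2 hM] at this
  · right
    exact le_antisymm hM (Subgroup.subgroupOf_eq_top.1 h)

end Cfsg.Agent.Lib.Helper33
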