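import Cfsg.Prelude.Def_MonsterType
import Cfsg.Agent.Lib.Helper37.CharP
import Cfsg.Agent.Lib.Helper92.ES2Ext

set_option autoImplicit false

namespace Cfsg.Agent.Lib.Helper33

open Cfsg

universe u

/-- `F*` of an extension of a simple group by a self-centralising 2-group -/
theorem genFitting_eq_ker {X : Type u} [Group X] [Finite X] {K : Type*} [Group K] (ρ : X →* K)
    (hs : Function.Surjective ρ) (hK : IsSimpleGroup K) (hK2 : ¬ IsPGroup 2 K)
    (hp : IsPGroup 2 ρ.ker) (hc : Subgroup.centralizer (ρ.ker : Set X) ≤ ρ.ker) :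
    generalizedFittingSubgroup X = ρ.ker := by
  have : Fact (Nat.Prime 2) := ⟨Nat.prime_two⟩
  have hcore : pCore 2 X = ρ.ker := by
    apply le_antisymm
    · have hn : ((pCore 2 X).map ρ).Normal :=
        Subgroup.Normal.map (inferInstance : (pCore 2 X).Normal) ρ hs
      rcases hK.eq_bot_or_eq_top_of_normal _ hn with h | h
      · exact (Subgroup.map_eq_bot_iff _).1 h
      · exfalso
        apply hK2
        have h1 : IsPGroup 2 ↥((pCore 2 X).map ρ) :=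
          (Cfsg.Agent.Lib.Helper28.pCore_isPGroup 2).map ρ
        rw [h] at h1
        exact h1.of_equiv Subgroup.topEquiv
    · exact Cfsg.Agent.Lib.Helper28.le_pCore inferInstance hp
  have hch : Cfsg.Agent.Lib.Helper37.CharP 2 X := by
    unfold Cfsg.Agent.Lib.Helper37.CharP
    rw [hcore]; exact hc
  rw [hch.genFitting_eq, hcore]

/-- The data from which the Baby Monster type of `Hb` is recognised. -/
structure BMData {Hb : Type u} [Group Hb] {A : Type u} [Group A] (f : A →* Hb)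
    (ρ : A →* Spor.Co2) (ζ τ : A) (L : leechPerpU → A → Prop) : Prop where
  hrange : ∀ x : Hb, x * f ζ = f ζ * x → x ∈ f.range
  hζc : ∀ a : A, a * ζ = ζ * a
  hker : ∀ a : A, f a = 1 ↔ a = 1 ∨ a = τ
  hτ1 : τ ≠ 1
  hζ1 : ζ ≠ 1
  hζτ : ζ ≠ τ
  hζ2 : ζ * ζ = 1
  hτ2 : τ * τ = 1
  hζR : ρ ζ = 1
  hτR : ρ τ = 1
  hρs : Function.Surjective ρ
  comm : ∀ x y : A, ρ x = 1 → ρ y = 1 → x * y = y * x ∨ x * y = y * x * ζ
  cen : ∀ c : A, ρ c = 1 → (∀ y : A, ρ y = 1 → c * y = y * c) →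
    c = 1 ∨ c = ζ ∨ c = τ ∨ c = τ * ζ
  hcard : Nat.card ρ.ker = 2 ^ 24
  hsimple : IsSimpleGroup Spor.Co2
  hnot2 : ¬ IsPGroup 2 Spor.Co2
  hfaith : ∃ g : Spor.Co2, ∀ a : A, ρ a = g →
    ¬ (∀ r : A, ρ r = 1 → a * r = r * a ∨ a * r = r * a * τ)
  hwc : ∃ (g : Hb) (r : A), ρ r = 1 ∧ g * f ζ * g⁻¹ = f r ∧ r ≠ ζ ∧ r ≠ τ * ζ
  L0 : ∀ x r, L x r → ρ r = 1
  L1 : ∀ x, ∃ r, L x r
  L2 : ∀ r, ρ r = 1 → ∃ x, L x r
  L3 : ∀ x y r r', L x r → L y r' → L (x + y) (r * r')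
  L4 : ∀ x r r', L x r → L x r' → r' = r ∨ r' = r * ζ
  L5 : ∀ x r, L x r → ((r = 1 ∨ r = ζ ∨ r = τ ∨ r = τ * ζ) ↔
    ((∃ w : leechLattice, (x : leechLattice) = w + w) ∨
      ∃ w : leechLattice, (x : leechLattice) = Spor.leechU + (w + w)))
  L6 : ∀ (a : A) (x y : leechPerpU) (r : A), L x r → ρ a • (x : leechLattice) = (y : leechLattice) →
    L y (a * r * a⁻¹)

namespace BMData

variable {Hb : Type u} [Group Hb] {A : Type u} [Group A] {f : A →* Hb}
  {ρ : A →* Spor.Co2} {ζ τ : A} {L : leechPerpU → A → Prop}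

/-- the map onto the centraliser of the image of `ζ` -/
def f' (h : BMData f ρ ζ τ L) : A →* ↥(Subgroup.centralizer ({f ζ} : Set Hb)) :=
  f.codRestrict _ (fun a => by
    rw [Subgroup.mem_centralizer_singleton_iff, ← map_mul, ← map_mul, h.hζc])

variable (h : BMData f ρ ζ τ L)

theorem f'_val (a : A) : ((h.f' a : ↥(Subgroup.centralizer ({f ζ} : Set Hb))) : Hb) = f a := rfl

theorem f'_surj : Function.Surjective h.f' := by
  rintro ⟨d, hd⟩
  obtain ⟨a, ha⟩ := h.hrange d (Subgroup.mem_centralizer_singleton_iff.1 hd)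
  exact ⟨a, Subtype.ext ha⟩

theorem f'_eq_one_iff (a : A) : h.f' a = 1 ↔ a = 1 ∨ a = τ := by
  rw [← h.hker]
  constructor
  · intro h1; exact congrArg Subtype.val h1
  · intro h1; exact Subtype.ext h1

theorem f'_ker_le : h.f'.ker ≤ ρ.ker := by
  intro a ha
  rcases (h.f'_eq_one_iff a).1 ha with rfl | rfl
  · exact map_one ρ
  · exact h.hτR

/-- equality of images -/
theorem f'_eq_iff (a b : A) : h.f' a = h.f' b ↔ b = a ∨ b = a * τ := by
  have : h.f' a = h.f' b ↔ h.f' (a⁻¹ * b) = 1 := by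
    rw [map_mul, map_inv, inv_mul_eq_one]
  rw [this, h.f'_eq_one_iff]
  constructor
  · rintro (h1 | h1)
    · left; exact (inv_mul_eq_one.1 h1).symm
    · right; rw [← h1]; group
  · rintro (h1 | h1)
    · left; rw [h1]; group
    · right; rw [h1]; group

/-- the induced map onto `Co2` -/
noncomputable def ρb : ↥(Subgroup.centralizer ({f ζ} : Set Hb)) →* Spor.Co2 :=
  (h.f'.liftOfSurjective h.f'_surj) ⟨ρ, h.f'_ker_le⟩

theorem ρb_f' (a : A) : h.ρb (h.f' a) = ρ a :=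
  MonoidHom.liftOfRightInverse_comp_apply _ _ _ ⟨ρ, h.f'_ker_le⟩ a

theorem ρb_surj : Function.Surjective h.ρb := by
  intro g
  obtain ⟨a, ha⟩ := h.hρs g
  exact ⟨h.f' a, by rw [h.ρb_f', ha]⟩

/-- the map between the kernels -/
noncomputable def φ : ρ.ker →* h.ρb.ker :=
  (h.f'.comp ρ.ker.subtype).codRestrict _ (fun r => by
    rw [MonoidHom.mem_ker]
    show h.ρb (h.f' r) = 1
    rw [h.ρb_f']; exact r.2)

theorem φ_val (r : ρ.ker) : ((h.φ r : h.ρb.ker) : ↥(Subgroup.centralizer ({f ζ} : Set Hb))) =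
    h.f' r := rfl

theorem φ_surj : Function.Surjective h.φ := by
  rintro ⟨d, hd⟩
  obtain ⟨a, rfl⟩ := h.f'_surj d
  rw [MonoidHom.mem_ker, h.ρb_f'] at hd
  exact ⟨⟨a, hd⟩, rfl⟩

theorem φ_eq_iff (a b : ρ.ker) : h.φ a = h.φ b ↔ (b : A) = a ∨ (b : A) = a * τ := by
  rw [← h.f'_eq_iff]
  constructor
  · intro h1; exact congrArg Subtype.val h1
  · intro h1; exact Subtype.ext h1

/-- `ζ` in the kernel -/
def ζR : ρ.ker := ⟨ζ, h.hζR⟩

/-- `τ` in the kernel -/
def τR : ρ.ker := ⟨τ, h.hτR⟩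

theorem φ_eq_one_iff (a : ρ.ker) : h.φ a = 1 ↔ (a : A) = 1 ∨ (a : A) = τ := by
  rw [← map_one h.φ, eq_comm, h.φ_eq_iff]
  simp

include h in
theorem τζ : τ * ζ = ζ * τ := h.hζc τ

theorem φ_eq_z_iff (a : ρ.ker) : h.φ a = h.φ h.ζR ↔ (a : A) = ζ ∨ (a : A) = τ * ζ := by
  rw [eq_comm, h.φ_eq_iff, h.τζ]
  rfl

theorem es2 : Cfsg.Agent.Lib.Helper92.ES2 h.ρb.ker (h.φ h.ζR) := by
  apply Cfsg.Agent.Lib.Helper92.ES2.of_elementwise
  · intro h1
    rcases (h.φ_eq_one_iff _).1 h1 with h2 | h2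
    · exact h.hζ1 h2
    · exact h.hζτ h2
  · rw [← map_mul]
    have : h.ζR * h.ζR = 1 := Subtype.ext h.hζ2
    rw [this, map_one]
  · intro a b
    obtain ⟨a, rfl⟩ := h.φ_surj a
    obtain ⟨b, rfl⟩ := h.φ_surj b
    rcases h.comm a b a.2 b.2 with h1 | h1
    · left
      rw [← map_mul, ← map_mul]
      congr 1
      exact Subtype.ext h1
    · right
      rw [← map_mul, ← map_mul, ← map_mul]
      congr 1
      exact Subtype.ext h1
  · intro a
    obtain ⟨a, rfl⟩ := h.φ_surj a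
    rw [← map_mul, ← map_mul]
    congr 1
    exact Subtype.ext (h.hζc a)
  · intro c hc
    obtain ⟨c, rfl⟩ := h.φ_surj c
    have hcen : ∀ y : A, ρ y = 1 → (c : A) * y = y * c := by
      intro y hy
      have h1 := hc (h.φ ⟨y, hy⟩)
      rw [← map_mul, ← map_mul, h.φ_eq_iff] at h1
      rcases h1 with h1 | h1
      · exact h1
      · have h1' : (c : A) * y = y * c * τ := h1
        rcases h.comm c y c.2 hy with h2 | h2
        · exact h2
        · exfalso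
          rw [h1'] at h2
          exact h.hζτ (mul_left_cancel h2).symm
    rcases h.cen c c.2 hcen with h1 | h1 | h1 | h1
    · left; exact (h.φ_eq_one_iff c).2 (Or.inl h1)
    · right; exact (h.φ_eq_z_iff c).2 (Or.inl h1)
    · left; exact (h.φ_eq_one_iff c).2 (Or.inr h1)
    · right; exact (h.φ_eq_z_iff c).2 (Or.inr h1)

theorem card_ker [Finite A] : Nat.card h.ρb.ker = 2 ^ 23 := by
  have h1 := Subgroup.card_mul_index h.φ.ker
  rw [Subgroup.index_ker, MonoidHom.range_eq_top.2 h.φ_surj, Subgroup.card_top, h.hcard] at h1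
  have h2 : Nat.card h.φ.ker = 2 := by
    rw [Nat.card_eq_two_iff]
    refine ⟨1, ⟨h.τR, (h.φ_eq_one_iff _).2 (Or.inr rfl)⟩, ?_, ?_⟩
    · intro h3
      have := congrArg (fun t : h.φ.ker => ((t : ρ.ker) : A)) h3
      exact h.hτ1 this.symm
    · rw [Set.eq_univ_iff_forall]
      rintro ⟨a, ha⟩
      rcases (h.φ_eq_one_iff a).1 ha with h3 | h3
      · left; exact Subtype.ext (Subtype.ext h3)
      · right; exact Subtype.ext (Subtype.ext h3)
  rw [h2] at h1
  omega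

theorem mem_center_iff (c : h.ρb.ker) :
    c ∈ Subgroup.center h.ρb.ker ↔ c = 1 ∨ c = h.φ h.ζR := by
  constructor
  · exact h.es2.all c
  · rintro (rfl | rfl)
    · exact one_mem _
    · exact h.es2.zc

/-- a chosen lift -/
noncomputable def lift (x : leechPerpU) : ρ.ker :=
  ⟨Classical.choose (h.L1 x), h.L0 _ _ (Classical.choose_spec (h.L1 x))⟩

theorem lift_spec (x : leechPerpU) : L x (h.lift x) := Classical.choose_spec (h.L1 x)

/-- the module map -/
noncomputable def ψ' (x : leechPerpU) : h.ρb.ker ⧸ Subgroup.center h.ρb.ker :=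
  QuotientGroup.mk (h.φ (h.lift x))

theorem ψ'_eq {x : leechPerpU} {r : ρ.ker} (hL : L x r) : h.ψ' x = QuotientGroup.mk (h.φ r) := by
  unfold ψ'
  rw [QuotientGroup.eq, h.mem_center_iff, ← map_inv, ← map_mul]
  rcases h.L4 x _ _ (h.lift_spec x) hL with h1 | h1
  · left
    have : (h.lift x)⁻¹ * r = 1 := by
      rw [inv_mul_eq_one]; exact Subtype.ext h1.symm
    rw [this, map_one]
  · right
    congr 1
    apply Subtype.ext
    show ((h.lift x : ρ.ker) : A)⁻¹ * (r : A) = ζ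
    rw [h1]; group

include h in
theorem orderOf_z : orderOf (f ζ) = 2 := by
  have : Fact (Nat.Prime 2) := ⟨Nat.prime_two⟩
  apply orderOf_eq_prime
  · rw [pow_two, ← map_mul, h.hζ2, map_one]
  · intro h1
    rcases (h.hker ζ).1 h1 with h2 | h2
    · exact h.hζ1 h2
    · exact h.hζτ h2

theorem centralizer_le : Subgroup.centralizer (h.ρb.ker : Set ↥(Subgroup.centralizer ({f ζ} : Set Hb))) ≤ h.ρb.ker := by
  have hn : (Subgroup.centralizer (h.ρb.ker : Set ↥(Subgroup.centralizer ({f ζ} : Set Hb)))).Normal := inferInstance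
  have hn' := hn.map h.ρb h.ρb_surj
  rcases h.hsimple.eq_bot_or_eq_top_of_normal _ hn' with h1 | h1
  · exact (Subgroup.map_eq_bot_iff _).1 h1
  · exfalso
    obtain ⟨g, hg⟩ := h.hfaith
    have h2 : g ∈ (Subgroup.centralizer (h.ρb.ker : Set ↥(Subgroup.centralizer ({f ζ} : Set Hb)))).map h.ρb := by rw [h1]; trivial
    obtain ⟨d, hd, hdg⟩ := h2
    obtain ⟨a, rfl⟩ := h.f'_surj d
    rw [h.ρb_f'] at hdg
    apply hg a hdg
    intro r hr
    have h3 := (Subgroup.mem_centralizer_iff.1 hd) (h.f' r) (by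
      show h.f' r ∈ h.ρb.ker
      rw [MonoidHom.mem_ker, h.ρb_f']; exact hr)
    rw [← map_mul, ← map_mul, h.f'_eq_iff] at h3
    exact h3

theorem fstar [Finite A] [Finite Hb] :
    generalizedFittingSubgroup ↥(Subgroup.centralizer ({f ζ} : Set Hb)) = h.ρb.ker :=
  genFitting_eq_ker h.ρb h.ρb_surj h.hsimple h.hnot2 (IsPGroup.of_card h.card_ker)
    h.centralizer_le

theorem weak : ∃ g : Hb, (∃ hq : g * f ζ * g⁻¹ ∈ Subgroup.centralizer ({f ζ} : Set Hb),
    (⟨g * f ζ * g⁻¹, hq⟩ : Subgroup.centralizer ({f ζ} : Set Hb)) ∈ h.ρb.ker) ∧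
    g * f ζ * g⁻¹ ≠ f ζ := by
  obtain ⟨g, r, hr, hg, h1, h2⟩ := h.hwc
  refine ⟨g, ⟨by rw [hg]; exact (h.f' r).2, ?_⟩, ?_⟩
  · have : (⟨g * f ζ * g⁻¹, by rw [hg]; exact (h.f' r).2⟩ :
        Subgroup.centralizer ({f ζ} : Set Hb)) = h.f' r := Subtype.ext hg
    rw [this, MonoidHom.mem_ker, h.ρb_f']; exact hr
  · rw [hg]
    intro h3
    have h4 : h.f' ζ = h.f' r := Subtype.ext h3.symm
    rcases (h.f'_eq_iff _ _).1 h4 with h5 | h5
    · exact h1 h5
    · exact h2 (by rw [h5, h.τζ])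

theorem ψ'_add (x y : leechPerpU) : h.ψ' (x + y) = h.ψ' x * h.ψ' y := by
  have h1 : L (x + y) ((h.lift x * h.lift y : ρ.ker) : A) := h.L3 _ _ _ _ (h.lift_spec x) (h.lift_spec y)
  rw [h.ψ'_eq h1, map_mul]
  rfl

theorem ψ'_surj : Function.Surjective h.ψ' := by
  intro q
  obtain ⟨q, rfl⟩ := QuotientGroup.mk_surjective q
  obtain ⟨r, rfl⟩ := h.φ_surj q
  obtain ⟨x, hx⟩ := h.L2 r r.2
  exact ⟨x, h.ψ'_eq hx⟩

theorem ψ'_ker (x : leechPerpU) : h.ψ' x = 1 ↔
    (∃ w : leechLattice, (x : leechLattice) = w + w) ∨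
      ∃ w : leechLattice, (x : leechLattice) = Spor.leechU + (w + w) := by
  rw [← h.L5 x _ (h.lift_spec x)]
  unfold ψ'
  rw [QuotientGroup.eq_one_iff, h.mem_center_iff, h.φ_eq_one_iff, h.φ_eq_z_iff]
  tauto

theorem ψ'_eqv (d : ↥(Subgroup.centralizer ({f ζ} : Set Hb))) (g : Spor.Co2)
    (hg : h.ρb d = g) (x y : leechPerpU) (hxy : g • (x : leechLattice) = (y : leechLattice))
    (q : h.ρb.ker) (hq : h.ψ' x = QuotientGroup.mk q) :
    h.ψ' y = QuotientGroup.mk ⟨d * q * d⁻¹,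
      (inferInstance : h.ρb.ker.Normal).conj_mem (q : ↥(Subgroup.centralizer ({f ζ} : Set Hb)))
        q.2 d⟩ := by
  obtain ⟨a, rfl⟩ := h.f'_surj d
  rw [h.ρb_f'] at hg
  subst hg
  have hρ : ρ (a * (h.lift x : A) * a⁻¹) = 1 := by
    rw [map_mul, map_mul, (h.lift x).2, mul_one, map_inv, mul_inv_cancel]
  have h1 : L y ((⟨a * (h.lift x : A) * a⁻¹, hρ⟩ : ρ.ker) : A) :=
    h.L6 a x y _ (h.lift_spec x) hxy
  rw [h.ψ'_eq h1]
  unfold ψ' at hq
  rw [QuotientGroup.eq, h.mem_center_iff] at hq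
  rw [QuotientGroup.eq, h.mem_center_iff]
  rcases hq with hq | hq
  · left
    have hq' : q = h.φ (h.lift x) := (inv_mul_eq_one.1 hq).symm
    rw [inv_mul_eq_one]
    apply Subtype.ext
    rw [hq']
    show h.f' (a * (h.lift x : A) * a⁻¹) = h.f' a * h.f' (h.lift x : A) * (h.f' a)⁻¹
    rw [map_mul, map_mul, map_inv]
  · right
    have hq' : q = h.φ (h.lift x) * h.φ h.ζR := by rw [← hq]; group
    apply Subtype.ext
    rw [hq']
    show (h.f' (a * (h.lift x : A) * a⁻¹))⁻¹ * (h.f' a * (h.f' (h.lift x : A) * h.f' ζ) * (h.f' a)⁻¹)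
      = h.f' ζ
    rw [← map_mul, ← map_mul, ← map_inv, ← map_inv, ← map_mul, ← map_mul]
    congr 1
    have := h.hζc a⁻¹
    calc (a * (h.lift x : A) * a⁻¹)⁻¹ * (a * ((h.lift x : A) * ζ) * a⁻¹)
        = a * (ζ * a⁻¹) := by group
      _ = a * (a⁻¹ * ζ) := by rw [this]
      _ = ζ := by group

include h in
/-- recognition of the Baby Monster type -/
theorem isBM [Finite A] [Finite Hb] : IsOfBabyMonsterType Hb := by
  refine ⟨f ζ, h.ρb.ker, inferInstance, ⟨h.orderOf_z, h.fstar, ?_, h.card_ker, h.weak⟩,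
    QuotientGroup.quotientKerEquivOfSurjective h.ρb h.ρb_surj, h.ψ',
    h.ψ'_add, h.ψ'_surj, h.ψ'_ker, ?_⟩
  · exact h.es2.isExtraspecial h.card_ker (by norm_num)
  · intro d g hg x y hxy q hq
    exact h.ψ'_eqv d g hg x y hxy q hq

end BMData

end Cfsg.Agent.Lib.Helper33
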