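import Cfsg.Agent.Lib.Helper33.MonMain

set_option autoImplicit false

namespace Cfsg.Agent.Lib.Helper33

open Cfsg MulAction

/-- elements of `Q` centralising a subgroup of index two -/
theorem XS.mem_of_centralizes {G : Type*} [Group G] {Q : Subgroup G} {z : G} (h : XS Q z)
    {R : Subgroup G} (hidx : R.relIndex Q = 2) {c d : G} (hc : c ∈ Q) (hd : d ∈ Q)
    (hcR : ∀ r ∈ R, c * r = r * c) (hdR : ∀ r ∈ R, d * r = r * d) (hc1 : c ≠ 1) (hcz : c ≠ z) :
    d = 1 ∨ d = z ∨ d = c ∨ d = c * z := by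
  obtain ⟨a, ha, hab⟩ := Subgroup.relIndex_eq_two_iff.1 hidx
  have hcen : ∀ d ∈ Q, (∀ r ∈ R, d * r = r * d) → d * a = a * d → d = 1 ∨ d = z := by
    intro d hd hdR hda
    apply h.cen d hd
    intro y hy
    by_cases hyR : y ∈ R
    · exact hdR y hyR
    · have h1 : y * a ∈ R := by
        rcases hab y hy with ⟨h2, _⟩ | ⟨h2, _⟩
        · exact h2
        · exact absurd h2 hyR
      have h2 := hdR _ h1
      have h3 : d * y * a = y * d * a := by
        calc d * y * a = d * (y * a) := by group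
          _ = y * a * d := h2
          _ = y * (a * d) := by group
          _ = y * (d * a) := by rw [hda]
          _ = y * d * a := by group
      exact mul_right_cancel h3
  have hca : c * a ≠ a * c := by
    intro hca
    rcases hcen c hc hcR hca with h1 | h1
    · exact hc1 h1
    · exact hcz h1
  have hca' := h.comm' hc ha hca
  by_cases hda : d * a = a * d
  · rcases hcen d hd hdR hda with h1 | h1
    · left; exact h1
    · right; left; exact h1
  · have hda' := h.comm' hd ha hda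
    have hq : c⁻¹ * d ∈ Q := Q.mul_mem (Q.inv_mem hc) hd
    have h1 : (c⁻¹ * d) * a = a * (c⁻¹ * d) := by
      have e1 : c⁻¹ * (z * a) = a * c⁻¹ := by
        have : z * a * c = c * a := by rw [hca']; group
        calc c⁻¹ * (z * a) = c⁻¹ * (z * a * c) * c⁻¹ := by group
          _ = c⁻¹ * (c * a) * c⁻¹ := by rw [this]
          _ = a * c⁻¹ := by group
      calc (c⁻¹ * d) * a = c⁻¹ * (d * a) := by group
        _ = c⁻¹ * (z * (a * d)) := by rw [hda']
        _ = (c⁻¹ * (z * a)) * d := by group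
        _ = a * c⁻¹ * d := by rw [e1]
        _ = a * (c⁻¹ * d) := by group
    have h2 : ∀ r ∈ R, (c⁻¹ * d) * r = r * (c⁻¹ * d) := by
      intro r hr
      have e1 := hcR r hr
      have e2 := hdR r hr
      have e3 : c⁻¹ * r = r * c⁻¹ := by
        calc c⁻¹ * r = c⁻¹ * (r * c) * c⁻¹ := by group
          _ = c⁻¹ * (c * r) * c⁻¹ := by rw [e1]
          _ = r * c⁻¹ := by group
      calc (c⁻¹ * d) * r = c⁻¹ * (d * r) := by group
        _ = c⁻¹ * (r * d) := by rw [e2]
        _ = (c⁻¹ * r) * d := by group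
        _ = r * c⁻¹ * d := by rw [e3]
        _ = r * (c⁻¹ * d) := by group
    rcases hcen _ hq h2 h1 with h3 | h3
    · right; right; left
      have : d = c * (c⁻¹ * d) := by group
      rw [this, h3, mul_one]
    · right; right; right
      have : d = c * (c⁻¹ * d) := by group
      rw [this, h3]

/-- the stabiliser of `leechU` in `Co0` is the group `Spor.Co2` -/
def stabEquivCo2 : ↥(stabilizer ↥Co0 Spor.leechU) ≃* ↥Spor.Co2 where
  toFun g := ⟨g.1.1, g.1.2, g.2⟩
  invFun g := ⟨⟨g.1, g.2.1⟩, g.2.2⟩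
  left_inv _ := rfl
  right_inv _ := rfl
  map_mul' _ _ := rfl

theorem stabEquivCo2_smul (g : ↥(stabilizer ↥Co0 Spor.leechU)) (x : leechLattice) :
    stabEquivCo2 g • x = (g : ↥Co0) • x := rfl

theorem sqNorm_leechU : sqNorm (Spor.leechU : GolayPt → ℤ) = 32 := by decide +kernel

section clevel

variable {C : Type*} [Group C] {Q : Subgroup C} [hQn : Q.Normal]
variable {e : C ⧸ Q ≃* Spor.Co1} {ψ : leechLattice → Q ⧸ Subgroup.center Q} {ζ : C}

/-- two vectors with a common lift are congruent modulo twice the lattice -/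
theorem LIso.congr_of_lift (hψ : LIso e ψ) {x y : leechLattice} {r : C} (h1 : Lf ψ x r)
    (h2 : Lf ψ y r) : ∃ w : leechLattice, y = x + (w + w) := by
  obtain ⟨_, h1⟩ := h1
  obtain ⟨_, h2⟩ := h2
  have h3 : ψ (x + y) = 1 := by
    rw [hψ.add, h2, ← h1, ← hψ.add]
    exact (hψ.ker _).2 ⟨x, rfl⟩
  obtain ⟨w, hw⟩ := (hψ.ker _).1 h3
  refine ⟨w - x, ?_⟩
  have : y = w + w - x := by rw [← hw]; abel
  rw [this]; abel

/-- the commutator form is the inner product -/
theorem LIso.comm_iff (hψ : LIso e ψ) (hX : XS Q ζ) (hU : QFUnique) (hbig : 2 < Nat.card Q)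
    {x y : leechLattice} {q r : C} (h1 : Lf ψ x q) (h2 : Lf ψ y r) :
    q * r = r * q ↔ (16 : ℤ) ∣ dotInt (x : GolayPt → ℤ) (y : GolayPt → ℤ) := by
  have e1 := hψ.sqv_mul hX h1.mem h2.mem
  rw [← qf_eq hX h1, ← qf_eq hX h2, ← qf_eq hX (hψ.mul h1 h2), hψ.qf_formula hX hU hbig,
    hψ.qf_formula hX hU hbig, hψ.qf_formula hX hU hbig] at e1
  obtain ⟨a, ha⟩ := Cfsg.Agent.S0392.result _ x.2
  obtain ⟨b, hb⟩ := Cfsg.Agent.S0392.result _ y.2
  obtain ⟨c, hc⟩ := Cfsg.Agent.S0392.result _ (x + y).2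
  have hadd := sqNorm_add (x : GolayPt → ℤ) (y : GolayPt → ℤ)
  have hco : ((x + y : leechLattice) : GolayPt → ℤ) = (x : GolayPt → ℤ) + (y : GolayPt → ℤ) := rfl
  rw [hco] at hc e1
  have h3 : sqNorm (x : GolayPt → ℤ) / 16 = a := by omega
  have h4 : sqNorm (y : GolayPt → ℤ) / 16 = b := by omega
  have h5 : sqNorm ((x : GolayPt → ℤ) + (y : GolayPt → ℤ)) / 16 = c := by omega
  rw [h3, h4, h5] at e1
  have h6 : cmv r q = (((c - a - b : ℤ)) : ZMod 2) := by
    push_cast
    rw [e1]; ring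
  have h7 : cmv r q = 0 ↔ q * r = r * q := by
    unfold cmv
    by_cases h8 : r * q = q * r
    · simp [h8]
    · have : ¬ (q * r = r * q) := fun h9 => h8 h9.symm
      simp [h8, this]
  rw [← h7, h6, ZMod.intCast_zmod_eq_zero_iff_dvd]
  have h9 : dotInt (x : GolayPt → ℤ) (y : GolayPt → ℤ) = 8 * (c - a - b) := by
    rw [hc, ha, hb] at hadd
    linarith
  rw [h9]
  constructor
  · rintro ⟨m, hm⟩; exact ⟨m, by push_cast at hm; rw [hm]; ring⟩
  · rintro ⟨m, hm⟩; exact ⟨m, by push_cast; omega⟩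

/-- twisting the identification by a lattice automorphism -/
theorem LIso.twist (hψ : LIso e ψ) (γ : Co0) :
    LIso (e.trans (MulAut.conj (QuotientGroup.mk γ : Spor.Co1))) (fun x => ψ (γ⁻¹ • x)) where
  add v w := by
    show ψ (γ⁻¹ • (v + w)) = _
    rw [co0_smul_add, hψ.add]
  surj y := by
    obtain ⟨v, hv⟩ := hψ.surj y
    exact ⟨γ • v, by show ψ (γ⁻¹ • γ • v) = y; rw [inv_smul_smul, hv]⟩
  ker v := by
    show ψ (γ⁻¹ • v) = 1 ↔ _
    rw [hψ.ker]
    constructor
    · rintro ⟨w, hw⟩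
      refine ⟨γ • w, ?_⟩
      rw [← co0_smul_add, ← hw, smul_inv_smul]
    · rintro ⟨w, hw⟩
      refine ⟨γ⁻¹ • w, ?_⟩
      rw [← co0_smul_add, ← hw]
  eqv h g hg v q hq := by
    show ψ (γ⁻¹ • g • v) = _
    have hg' : (QuotientGroup.mk g : Spor.Co1) =
        QuotientGroup.mk γ * e (QuotientGroup.mk h) * (QuotientGroup.mk γ)⁻¹ := hg
    have h1 : (QuotientGroup.mk (γ⁻¹ * g * γ) : Spor.Co1) = e (QuotientGroup.mk h) := by
      rw [QuotientGroup.mk_mul, QuotientGroup.mk_mul, hg', QuotientGroup.mk_inv]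
      group
    have h2 := hψ.eqv h (γ⁻¹ * g * γ) h1 (γ⁻¹ • v) q hq
    rw [← h2, mul_smul, mul_smul, smul_inv_smul]

/-- the map from the centraliser of a lift of a minimal vector onto the vector stabiliser -/
noncomputable def rho0 (hψ : LIso e ψ) (hX : XS Q ζ) {v : leechLattice} {s : C}
    (hs : Lf ψ v s) (hv : sqNorm (v : GolayPt → ℤ) = 32) :
    ↥(Subgroup.centralizer ({s} : Set C)) →* ↥(stabilizer ↥Co0 v) :=
  (MonoidHom.ofInjective (stabToCo1_injective
    (ne_zero_of_norm (v := v) (by rw [hv]; norm_num)))).symm.toMonoidHom.comp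
    (((piC e).comp (Subgroup.centralizer ({s} : Set C)).subtype).codRestrict (stabToCo1 v).range
      (fun a => by
        rw [← hψ.map_centralizer hX hs hv]
        exact ⟨a, a.2, rfl⟩))

theorem rho0_spec (hψ : LIso e ψ) (hX : XS Q ζ) {v : leechLattice} {s : C}
    (hs : Lf ψ v s) (hv : sqNorm (v : GolayPt → ℤ) = 32)
    (a : ↥(Subgroup.centralizer ({s} : Set C))) :
    (QuotientGroup.mk ((rho0 hψ hX hs hv a : ↥(stabilizer ↥Co0 v)) : ↥Co0) : Spor.Co1) =
      e (QuotientGroup.mk (a : C)) := by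
  have h1 := (MonoidHom.ofInjective (stabToCo1_injective
    (ne_zero_of_norm (v := v) (by rw [hv]; norm_num)))).apply_symm_apply
    ((((piC e).comp (Subgroup.centralizer ({s} : Set C)).subtype).codRestrict (stabToCo1 v).range
      (fun a => by
        rw [← hψ.map_centralizer hX hs hv]
        exact ⟨a, a.2, rfl⟩)) a)
  exact congrArg Subtype.val h1

theorem rho0_surj (hψ : LIso e ψ) (hX : XS Q ζ) {v : leechLattice} {s : C}
    (hs : Lf ψ v s) (hv : sqNorm (v : GolayPt → ℤ) = 32) :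
    Function.Surjective (rho0 hψ hX hs hv) := by
  intro g
  have h1 : stabToCo1 v g ∈ (Subgroup.centralizer ({s} : Set C)).map (piC e) := by
    rw [hψ.map_centralizer hX hs hv]; exact ⟨g, rfl⟩
  obtain ⟨a, ha, hag⟩ := h1
  refine ⟨⟨a, ha⟩, ?_⟩
  apply stabToCo1_injective (ne_zero_of_norm (v := v) (by rw [hv]; norm_num))
  rw [← hag]
  exact rho0_spec hψ hX hs hv ⟨a, ha⟩

theorem rho0_eq_one_iff (hψ : LIso e ψ) (hX : XS Q ζ) {v : leechLattice} {s : C}
    (hs : Lf ψ v s) (hv : sqNorm (v : GolayPt → ℤ) = 32)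
    (a : ↥(Subgroup.centralizer ({s} : Set C))) : rho0 hψ hX hs hv a = 1 ↔ (a : C) ∈ Q := by
  have h1 := rho0_spec hψ hX hs hv a
  have h0 : (a : C) ∈ Q ↔ (QuotientGroup.mk ((rho0 hψ hX hs hv a : ↥(stabilizer ↥Co0 v)) : ↥Co0) :
      Spor.Co1) = 1 := by
    rw [h1, MulEquiv.map_eq_one_iff, QuotientGroup.eq_one_iff]
  rw [h0]
  constructor
  · intro h2; rw [h2]; rfl
  · intro h2
    apply stabToCo1_injective (ne_zero_of_norm (v := v) (by rw [hv]; norm_num))
    rw [map_one]; exact h2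

end clevel

end Cfsg.Agent.Lib.Helper33
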