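import Cfsg.Agent.Lib.Helper33.MonMain

set_option autoImplicit false

namespace Cfsg.Agent.Lib.Helper33

open Cfsg MulAction

/-- the facts about the Leech lattice and the Conway groups that are used -/
structure CoFacts : Prop where
  hU : QFUnique
  hCo1 : IsCo1 Spor.Co1
  hCo2 : ∀ v : leechLattice, sqNorm (v : GolayPt → ℤ) = 32 → IsCo2 ↥(stabilizer ↥Co0 v)
  t32 : ∀ v w : leechLattice, sqNorm (v : GolayPt → ℤ) = 32 → sqNorm (w : GolayPt → ℤ) = 32 →
    ∃ g : Co0, g • v = w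
  t64 : ∀ v w : leechLattice, sqNorm (v : GolayPt → ℤ) = 64 → sqNorm (w : GolayPt → ℤ) = 64 →
    ∃ g : Co0, ∃ t ∈ leechLattice,
      ((g • v : leechLattice) : GolayPt → ℤ) - (w : GolayPt → ℤ) = 2 • t

section glevel

variable {G : Type*} [Group G] [Finite G] {z : G}
  {Q : Subgroup (Subgroup.centralizer ({z} : Set G))} [hQn : Q.Normal]
  {e : (Subgroup.centralizer ({z} : Set G)) ⧸ Q ≃* Spor.Co1}
  {ψ : leechLattice → Q ⧸ Subgroup.center Q}

theorem MonPack.big (hP : MonPack z Q e ψ) : 2 < Nat.card Q := by rw [hP.hcard]; norm_num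

/-- conjugates of `z` in `Q` other than `z` are lifts of vectors of norm 64 -/
theorem MonPack.conj_imp (hF : CoFacts) (hP : MonPack z Q e ψ)
    {x : Subgroup.centralizer ({z} : Set G)} (hx : x ∈ Q) (hc : IsConj z (x : G))
    (hxz : (x : G) ≠ z) : ∃ v : leechLattice, sqNorm (v : GolayPt → ℤ) = 64 ∧ Lf ψ v x := by
  obtain ⟨g, hg⟩ := isConj_iff.1 hc
  have hz1 : z ≠ 1 := hP.xsG.zne
  have hx1 : x ≠ 1 := by
    intro h
    have h1 : (x : G) = 1 := congrArg Subtype.val h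
    rw [h1] at hg
    apply hz1
    calc z = g⁻¹ * (g * z * g⁻¹) * g := by group
      _ = 1 := by rw [hg]; group
  have hxz' : x ≠ zC z := fun h => hxz (congrArg Subtype.val h)
  have hsq : x * x = 1 := by
    apply Subtype.ext
    show (x : G) * (x : G) = 1
    rw [← hg]
    calc g * z * g⁻¹ * (g * z * g⁻¹) = g * (z * z) * g⁻¹ := by group
      _ = 1 := by rw [hP.xsG.zsq]; group
  obtain ⟨v, hv, hn⟩ := hP.hψ.short_lift hP.hX hx hx1 hxz'
  rcases hn with hn | hn | hn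
  · exact absurd hc (hP.no32 hF.hCo1 hF.hCo2 hv hn)
  · exfalso
    have := (hP.hψ.sq_iff hP.hX hF.hU hP.big hv).1 hsq
    rw [hn] at this
    revert this; norm_num
  · exact ⟨v, hn, hv⟩

/-- two lifts of vectors of norm 64 are conjugate in the centraliser -/
theorem MonPack.conj64 (hF : CoFacts) (hP : MonPack z Q e ψ)
    {x y : Subgroup.centralizer ({z} : Set G)} {v w : leechLattice}
    (hv : sqNorm (v : GolayPt → ℤ) = 64) (hw : sqNorm (w : GolayPt → ℤ) = 64)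
    (hx : Lf ψ v x) (hy : Lf ψ w y) : ∃ h : Subgroup.centralizer ({z} : Set G), h * x * h⁻¹ = y := by
  obtain ⟨g, t, ht, hgt⟩ := hF.t64 v w hv hw
  apply hP.hψ.transfer hP.hX hx hy (not_double (Or.inr (Or.inr hw))) g (-⟨t, ht⟩)
  apply Subtype.ext
  show (w : GolayPt → ℤ) = ((g • v : leechLattice) : GolayPt → ℤ) + (-t + -t)
  have : (w : GolayPt → ℤ) = ((g • v : leechLattice) : GolayPt → ℤ) - 2 • t := by rw [← hgt]; abel
  rw [this, two_smul]; abel

/-- two lifts of vectors of norm 32 are conjugate in the centraliser -/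
theorem MonPack.conj32 (hF : CoFacts) (hP : MonPack z Q e ψ)
    {x y : Subgroup.centralizer ({z} : Set G)} {v w : leechLattice}
    (hv : sqNorm (v : GolayPt → ℤ) = 32) (hw : sqNorm (w : GolayPt → ℤ) = 32)
    (hx : Lf ψ v x) (hy : Lf ψ w y) : ∃ h : Subgroup.centralizer ({z} : Set G), h * x * h⁻¹ = y := by
  obtain ⟨g, hg⟩ := hF.t32 v w hv hw
  apply hP.hψ.transfer hP.hX hx hy (not_double (Or.inl hw)) g 0
  rw [hg]; simp

/-- lifts of vectors of norm 64 are conjugate to `z` -/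
theorem MonPack.imp_conj (hF : CoFacts) (hP : MonPack z Q e ψ)
    (hwc : ∃ g : G, (∃ hq : g * z * g⁻¹ ∈ Subgroup.centralizer ({z} : Set G),
      (⟨g * z * g⁻¹, hq⟩ : Subgroup.centralizer ({z} : Set G)) ∈ Q) ∧ g * z * g⁻¹ ≠ z)
    {x : Subgroup.centralizer ({z} : Set G)} {v : leechLattice}
    (hv : sqNorm (v : GolayPt → ℤ) = 64) (hx : Lf ψ v x) : IsConj z (x : G) ∧ (x : G) ≠ z := by
  obtain ⟨g, ⟨hq, hgQ⟩, hgz⟩ := hwc
  obtain ⟨v0, hv0, hL0⟩ := hP.conj_imp hF hgQ (isConj_iff.2 ⟨g, rfl⟩) hgz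
  obtain ⟨h, hh⟩ := hP.conj64 hF hv0 hv hL0 hx
  constructor
  · rw [isConj_iff]
    refine ⟨(h : G) * g, ?_⟩
    have := congrArg Subtype.val hh
    rw [← this]
    show (h : G) * g * z * ((h : G) * g)⁻¹ = (h : G) * (g * z * g⁻¹) * (h : G)⁻¹
    group
  · intro h1
    have : x = zC z := Subtype.ext h1
    exact not_double (Or.inr (Or.inr hv)) ((hP.hψ.central_iff hP.hX hx).1 (Or.inr this))

/-- involutions of `Q` not conjugate to `z` are lifts of minimal vectors -/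
theorem MonPack.nonconj_imp (hF : CoFacts) (hP : MonPack z Q e ψ)
    (hwc : ∃ g : G, (∃ hq : g * z * g⁻¹ ∈ Subgroup.centralizer ({z} : Set G),
      (⟨g * z * g⁻¹, hq⟩ : Subgroup.centralizer ({z} : Set G)) ∈ Q) ∧ g * z * g⁻¹ ≠ z)
    {x : Subgroup.centralizer ({z} : Set G)} (hx : x ∈ Q) (h2 : orderOf (x : G) = 2)
    (hc : ¬ IsConj z (x : G)) : ∃ v : leechLattice, sqNorm (v : GolayPt → ℤ) = 32 ∧ Lf ψ v x := by
  have hx1 : x ≠ 1 := by
    intro h
    have h1 : (x : G) = 1 := congrArg Subtype.val h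
    rw [h1, orderOf_one] at h2
    omega
  have hxz' : x ≠ zC z := by
    intro h
    apply hc
    rw [h]
    exact IsConj.refl z
  have hsq : x * x = 1 := by
    apply Subtype.ext
    show (x : G) * (x : G) = 1
    rw [← pow_two, ← h2]
    exact pow_orderOf_eq_one _
  obtain ⟨v, hv, hn⟩ := hP.hψ.short_lift hP.hX hx hx1 hxz'
  rcases hn with hn | hn | hn
  · exact ⟨v, hn, hv⟩
  · exfalso
    have := (hP.hψ.sq_iff hP.hX hF.hU hP.big hv).1 hsq
    rw [hn] at this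
    revert this; norm_num
  · exact absurd (hP.imp_conj hF hwc hn hv).1 hc

end glevel

/-! ### the four statements -/

theorem mon5408 (hF : CoFacts) {G : Type*} [Group G] [Finite G] (z : G)
    (Q : Subgroup (Subgroup.centralizer ({z} : Set G))) [Q.Normal] (hM : IsOfMonsterType z Q) :
    ∃ E : Subgroup Q, IsElementaryAbelian 2 E ∧ Nat.card E = 2 ^ 13 := by
  obtain ⟨hS, e, ψ, hψ⟩ := hM
  have hP := monPack_of hF.hCo1 hS hψ
  exact hP.hψ.exists_elemAb hP.hX hF.hU hP.hcard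

theorem mon5407 (hF : CoFacts) {G : Type*} [Group G] [Finite G] (z : G)
    (Q : Subgroup (Subgroup.centralizer ({z} : Set G))) [Q.Normal] (hM : IsOfMonsterType z Q)
    (e : (Subgroup.centralizer ({z} : Set G)) ⧸ Q ≃* Spor.Co1)
    (ψ : leechLattice → Q ⧸ Subgroup.center Q) (hψ : IsLeechModTwoIso Q e ψ) (x : Q) :
    (IsConj z ((x : Subgroup.centralizer ({z} : Set G)) : G) ∧
      ((x : Subgroup.centralizer ({z} : Set G)) : G) ≠ z) ↔
    ∃ v : leechLattice, sqNorm (v : GolayPt → ℤ) = 64 ∧ ψ v = QuotientGroup.mk x := by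
  have hS := hM.1
  have hP := monPack_of hF.hCo1 hS hψ
  constructor
  · rintro ⟨h1, h2⟩
    obtain ⟨v, hv, _, hL⟩ := hP.conj_imp hF x.2 h1 h2
    exact ⟨v, hv, hL⟩
  · rintro ⟨v, hv, hL⟩
    exact hP.imp_conj hF hS.2.2.2.2 hv ⟨x.2, hL⟩

theorem mon5406 (hF : CoFacts) {G : Type*} [Group G] [Finite G] (z : G)
    (Q : Subgroup (Subgroup.centralizer ({z} : Set G))) [Q.Normal] (hM : IsOfMonsterType z Q)
    (s t : G)
    (hsQ : ∃ hsc : s ∈ Subgroup.centralizer ({z} : Set G),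
      (⟨s, hsc⟩ : Subgroup.centralizer ({z} : Set G)) ∈ Q)
    (htQ : ∃ htc : t ∈ Subgroup.centralizer ({z} : Set G),
      (⟨t, htc⟩ : Subgroup.centralizer ({z} : Set G)) ∈ Q)
    (hs : IsConj z s) (ht : IsConj z t) (hs1 : s ≠ z) (ht1 : t ≠ z) :
    ∃ h ∈ Subgroup.centralizer ({z} : Set G), h * s * h⁻¹ = t := by
  obtain ⟨hS, e, ψ, hψ⟩ := hM
  have hP := monPack_of hF.hCo1 hS hψ
  obtain ⟨hsc, hsQ⟩ := hsQ
  obtain ⟨htc, htQ⟩ := htQ
  obtain ⟨v, hv, hLv⟩ := hP.conj_imp hF hsQ hs hs1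
  obtain ⟨w, hw, hLw⟩ := hP.conj_imp hF htQ ht ht1
  obtain ⟨h, hh⟩ := hP.conj64 hF hv hw hLv hLw
  exact ⟨h, h.2, congrArg Subtype.val hh⟩

theorem mon5411 (hF : CoFacts) {G : Type*} [Group G] [Finite G] (z : G)
    (Q : Subgroup (Subgroup.centralizer ({z} : Set G))) [Q.Normal] (hM : IsOfMonsterType z Q)
    (s t : G)
    (hsQ : ∃ hsc : s ∈ Subgroup.centralizer ({z} : Set G),
      (⟨s, hsc⟩ : Subgroup.centralizer ({z} : Set G)) ∈ Q)
    (htQ : ∃ htc : t ∈ Subgroup.centralizer ({z} : Set G),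
      (⟨t, htc⟩ : Subgroup.centralizer ({z} : Set G)) ∈ Q)
    (hs2 : orderOf s = 2) (ht2 : orderOf t = 2) (hs : ¬ IsConj z s) (ht : ¬ IsConj z t) :
    ∃ h ∈ Subgroup.centralizer ({z} : Set G), h * s * h⁻¹ = t := by
  obtain ⟨hS, e, ψ, hψ⟩ := hM
  have hP := monPack_of hF.hCo1 hS hψ
  obtain ⟨hsc, hsQ⟩ := hsQ
  obtain ⟨htc, htQ⟩ := htQ
  obtain ⟨v, hv, hLv⟩ := hP.nonconj_imp hF hS.2.2.2.2 hsQ hs2 hs
  obtain ⟨w, hw, hLw⟩ := hP.nonconj_imp hF hS.2.2.2.2 htQ ht2 ht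
  obtain ⟨h, hh⟩ := hP.conj32 hF hv hw hLv hLw
  exact ⟨h, h.2, congrArg Subtype.val hh⟩

end Cfsg.Agent.Lib.Helper33
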