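import Cfsg.Agent.Lib.Helper33.SimpCo2

set_option autoImplicit false

namespace Cfsg.Agent.Lib.Helper33

open Cfsg MulAction

theorem neg_mem_C1 {τ : ℤ} {a y : ↥leechLattice} (h : y ∈ C1 τ a) : -y ∈ C1 (-τ) a := by
  refine ⟨?_, ?_⟩
  · rw [mem_L2_iff, ldot_neg_left, ldot_neg_right, neg_neg]
    exact (mem_L2_iff y).1 h.1
  · show ldot a (-y) = -τ
    rw [ldot_neg_right]
    exact congrArg Neg.neg h.2

theorem OrbCls.negC1 {τ : ℤ} {a₀ : ↥leechLattice} {m : ℕ} (D : OrbCls ↥Co0 (C1 τ) a₀ m) :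
    OrbCls ↥Co0 (C1 (-τ)) a₀ m := by
  refine ⟨C1_equi _, ?_, ?_⟩
  · intro y hy z hz
    have hy' := neg_mem_C1 hy
    have hz' := neg_mem_C1 hz
    rw [neg_neg] at hy' hz'
    obtain ⟨h, h0, h1⟩ := D.trans _ hy' _ hz'
    refine ⟨h, h0, ?_⟩
    rw [co0_smul_neg] at h1
    exact neg_injective h1
  · rw [← D.count]
    have : C1 (-τ) a₀ = (fun y => -y) '' C1 τ a₀ := by
      ext y
      constructor
      · intro hy
        have hy' := neg_mem_C1 hy
        rw [neg_neg] at hy'
        exact ⟨-y, hy', neg_neg y⟩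
      · rintro ⟨z, hz, rfl⟩
        exact neg_mem_C1 hz
    rw [this, Set.ncard_image_of_injective _ neg_injective]

theorem cls32 {a₀ : ↥leechLattice} (ha : a₀ ∈ L2) : OrbCls ↥Co0 (C1 32) a₀ 1 := by
  refine ⟨C1_equi _, ?_, ?_⟩
  · intro y hy z hz
    refine ⟨1, one_smul _ _, ?_⟩
    rw [one_smul, eq_of_ldot_32 ha hy.1 hy.2, eq_of_ldot_32 ha hz.1 hz.2]
  · have : C1 32 a₀ = {a₀} := by
      ext y
      constructor
      · intro hy
        exact eq_of_ldot_32 ha hy.1 hy.2
      · rintro rfl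
        exact ⟨ha, (mem_L2_iff _).1 ha⟩
    rw [this, Set.ncard_singleton]

theorem cls0' : OrbCls ↥Co0 (C1 0) (lv bA0) 93150 := by
  rw [← lv0_eq]; exact cls0

theorem clsm16' : OrbCls ↥Co0 (C1 (-16)) (lv bA0) 4600 := by
  rw [← lv0_eq]; exact clsm16

def c1Vals : Finset ℤ := {32, -32, 16, -16, 8, -8, 0}
def c1C (τ : ℤ) : ℕ :=
  if τ = 32 then 1 else if τ = -32 then 1 else if τ = 16 then 4600 else if τ = -16 then 4600
  else if τ = 8 then 47104 else if τ = -8 then 47104 else if τ = 0 then 93150 else 0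

theorem c1_cls : ∀ τ ∈ c1Vals, OrbCls ↥Co0 (C1 τ) (lv bA0) (c1C τ) := by
  intro τ hτ
  simp only [c1Vals, Finset.mem_insert, Finset.mem_singleton] at hτ
  rcases hτ with rfl | rfl | rfl | rfl | rfl | rfl | rfl
  · exact cls32 bA0_L2
  · exact (cls32 bA0_L2).negC1
  · have := clsm16'.negC1
    rwa [neg_neg] at this
  · exact clsm16'
  · have := clsm8'.negC1
    rwa [neg_neg] at this
  · exact clsm8'
  · exact cls0'

theorem le_center_of_card_two {G : Type*} [Group G] (N : Subgroup G) [hN : N.Normal] (h : Nat.card N = 2) :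
    N ≤ Subgroup.center G := by
  intro m hm
  rw [Subgroup.mem_center_iff]
  intro g
  by_cases h1 : m = 1
  · rw [h1, mul_one, one_mul]
  · obtain ⟨z, _, hz⟩ := (Nat.card_eq_two_iff' (1 : N)).1 h
    have e1 : (⟨m, hm⟩ : N) = z := hz _ (fun e => h1 (congrArg Subtype.val e))
    have e2 : (⟨g * m * g⁻¹, hN.conj_mem m hm g⟩ : N) = z := by
      apply hz
      intro e
      have e' : g * m * g⁻¹ = 1 := congrArg Subtype.val e
      apply h1
      have : m = g⁻¹ * (g * m * g⁻¹) * g := by group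
      rw [this, e']
      group
    have e3 : g * m * g⁻¹ = m := congrArg Subtype.val (e2.trans e1.symm)
    calc g * m = g * m * g⁻¹ * g := by group
      _ = m * g := by rw [e3]

section
variable (hCo0 : Nat.card ↥Co0 = 8315553613086720000)
include hCo0

theorem normal_co0 (N : Subgroup ↥Co0) [hN : N.Normal] : N ≤ Subgroup.center ↥Co0 ∨ N = ⊤ := by
  have hfin := finite_co0 hCo0
  have horb : orbit ↥Co0 (lv bA0) = L2 := orbit_L2 bA0_L2
  have hfinL : L2.Finite := by rw [← horb]; exact Set.finite_range _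
  have hcount : ∀ τ ∈ c1Vals, {y | y ∈ L2 ∧ ldot (lv bA0) y = τ}.ncard = c1C τ :=
    fun τ hτ => (c1_cls τ hτ).count
  have hvals : ∀ y ∈ L2, ldot (lv bA0) y ∈ c1Vals :=
    fiber_cover L2 hfinL (fun y => ldot (lv bA0) y) c1Vals (by
      rw [Finset.sum_congr rfl hcount, L2_ncard]; decide)
  obtain ⟨T, hT, h32, hdvd, hcard, _⟩ := orbit_normal_cases N (lv bA0) (fun y => ldot (lv bA0) y) c1Vals c1C 196560
    (by rw [horb]; exact L2_ncard) (by rw [horb]; exact hvals) (by
      rw [horb]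
      intro y hy y' hy' e
      exact (c1_cls _ (hvals y hy)).trans y ⟨hy, rfl⟩ y' ⟨hy', e.symm⟩) (by rw [horb]; exact hcount)
  have h32' : (32 : ℤ) ∈ T := by
    have : ldot (lv bA0) (lv bA0) = 32 := (mem_L2_iff _).1 bA0_L2
    rw [← this]; exact h32
  have harith : ∀ T ∈ c1Vals.powerset, (32 : ℤ) ∈ T → (∑ τ ∈ T, c1C τ) ∣ 196560 →
      (∑ τ ∈ T, c1C τ) = 1 ∨ (∑ τ ∈ T, c1C τ) = 2 ∨ (∑ τ ∈ T, c1C τ) = 196560 := by decide +kernel
  have hc3 := harith T hT h32' hdvd
  rw [← hcard] at hc3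
  rcases simple_sub_dichotomy N _ (simple_co2 hCo0) with h1 | ⟨h1, _⟩
  · right
    -- the orbit is large
    obtain ⟨g, hg⟩ := to_la0 bW0_mem.1
    have e1 : (orbit N (lv bW0)).ncard = (orbit N (lv bA0)).ncard := by
      have := ncard_orbit_normal_smul N (lv bW0) g
      rw [hg] at this
      exact this.symm
    have e2 : C1 (-8) (lv bA0) ⊆ orbit N (lv bW0) := by
      intro y hy
      obtain ⟨h, h0, h2⟩ := clsm8'.trans _ bW0_mem _ hy
      exact ⟨⟨h, h1 h0⟩, h2⟩
    have e3 := Set.ncard_le_ncard e2 (Set.finite_range _)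
    rw [clsm8'.count, e1] at e3
    have e4 : (orbit N (lv bA0)).ncard = 196560 := by omega
    have e5 : orbit N (lv bA0) = orbit ↥Co0 (lv bA0) := by
      apply Set.eq_of_subset_of_ncard_le (orbit_sub_subset N _) _ (Set.finite_range _)
      rw [e4, horb, L2_ncard]
    rw [eq_top_iff]
    intro k _
    have : k • lv bA0 ∈ orbit N (lv bA0) := by rw [e5]; exact ⟨k, rfl⟩
    obtain ⟨n, hn⟩ := this
    have hn' : (n : ↥Co0) • lv bA0 = k • lv bA0 := hn
    have h3 : (n : ↥Co0)⁻¹ * k ∈ stabilizer ↥Co0 (lv bA0) := by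
      rw [mem_stabilizer_iff, mul_smul, ← hn', inv_smul_smul]
    have := N.mul_mem n.2 (h1 h3)
    rwa [mul_inv_cancel_left] at this
  · left
    have h4 := card_eq_orbit_mul N (lv bA0)
    rw [h1, Subgroup.card_bot, one_mul] at h4
    rw [← h4] at hc3
    rcases hc3 with h | h | h
    · rw [Subgroup.card_eq_one.1 h]; exact bot_le
    · exact le_center_of_card_two N h
    · exfalso
      have hidx : (stabilizer ↥Co0 (lv bU0)).index = 16773120 := by
        have := (stabilizer ↥Co0 (lv bU0)).card_mul_index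
        rw [card_co3 hCo0, hCo0] at this
        omega
      rcases simple_sub_dichotomy N _ (simple_co3 hCo0) with h5 | ⟨_, h5⟩
      · have := Subgroup.card_le_of_le h5
        rw [card_co3 hCo0, h] at this
        omega
      · rw [h, hidx] at h5
        exact absurd h5 (by decide)

theorem isCo1_quot : IsCo1 (↥Co0 ⧸ Subgroup.center ↥Co0) := by
  have hfin := finite_co0 hCo0
  have hcard : Nat.card (↥Co0 ⧸ Subgroup.center ↥Co0) = 4157776806543360000 := by
    have := Subgroup.card_eq_card_quotient_mul_card_subgroup (Subgroup.center ↥Co0)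
    rw [hCo0, Cfsg.Agent.Lib.Helper9.card_center_Co0] at this
    omega
  refine ⟨?_, hcard⟩
  have : Nontrivial (↥Co0 ⧸ Subgroup.center ↥Co0) := by
    apply (Finite.one_lt_card_iff_nontrivial).1
    rw [hcard]; norm_num
  refine ⟨fun M hM => ?_⟩
  have hn : (M.comap (QuotientGroup.mk' (Subgroup.center ↥Co0))).Normal := hM.comap _
  rcases normal_co0 hCo0 (M.comap (QuotientGroup.mk' (Subgroup.center ↥Co0))) with h | h
  · left
    rw [eq_bot_iff]
    intro q hq
    obtain ⟨g, rfl⟩ := QuotientGroup.mk'_surjective _ q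
    have : g ∈ Subgroup.center ↥Co0 := h hq
    rw [Subgroup.mem_bot]
    exact (QuotientGroup.eq_one_iff g).2 this
  · right
    rw [eq_top_iff]
    intro q _
    obtain ⟨g, rfl⟩ := QuotientGroup.mk'_surjective _ q
    have : g ∈ M.comap (QuotientGroup.mk' (Subgroup.center ↥Co0)) := by rw [h]; trivial
    exact this

end

end Cfsg.Agent.Lib.Helper33
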