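import Cfsg.Agent.Lib.Helper33.MonBM
import Cfsg.Agent.Lib.Helper33.MonBM2
import Cfsg.Agent.Lib.Helper33.MonFinal
import Cfsg.Agent.Lib.Helper33.SimpCo1

set_option autoImplicit false

namespace Cfsg.Agent.Lib.Helper33

open Cfsg MulAction

universe u

theorem mem_zpowers_of_sq {G : Type*} [Group G] {t x : G} (h : t * t = 1) :
    x ∈ Subgroup.zpowers t ↔ x = 1 ∨ x = t := by
  constructor
  · rintro ⟨k, rfl⟩
    have h2 : t ^ (2 : ℤ) = 1 := by
      rw [zpow_two]; exact h
    rcases Int.even_or_odd' k with ⟨m, rfl | rfl⟩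
    · left
      show t ^ (2 * m) = 1
      rw [zpow_mul, h2, one_zpow]
    · right
      show t ^ (2 * m + 1) = t
      rw [zpow_add, zpow_mul, h2, one_zpow, one_mul, zpow_one]
  · rintro (rfl | rfl)
    · exact one_mem _
    · exact Subgroup.mem_zpowers _

section

variable {G : Type u} [Group G] {z : G}
  {Q : Subgroup (Subgroup.centralizer ({z} : Set G))} [hQn : Q.Normal]
  {e : (Subgroup.centralizer ({z} : Set G)) ⧸ Q ≃* Spor.Co1}
  {ψ : leechLattice → Q ⧸ Subgroup.center Q}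

/-- the centraliser of `t` in the centraliser of `z`, mapped to the centraliser of `t` -/
def toHt {t : G} (htc : t ∈ Subgroup.centralizer ({z} : Set G)) :
    ↥(Subgroup.centralizer ({(⟨t, htc⟩ : Subgroup.centralizer ({z} : Set G))} :
      Set (Subgroup.centralizer ({z} : Set G)))) →* ↥(Subgroup.centralizer ({t} : Set G)) where
  toFun a := ⟨((a : Subgroup.centralizer ({z} : Set G)) : G), by
    have := Subgroup.mem_centralizer_singleton_iff.1 a.2
    rw [Subgroup.mem_centralizer_singleton_iff]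
    exact congrArg Subtype.val this⟩
  map_one' := rfl
  map_mul' _ _ := rfl

/-- the map to the quotient by `⟨t⟩` -/
def fA {t : G} (htc : t ∈ Subgroup.centralizer ({z} : Set G))
    [hn : ((Subgroup.zpowers t).subgroupOf (Subgroup.centralizer ({t} : Set G))).Normal] :
    ↥(Subgroup.centralizer ({(⟨t, htc⟩ : Subgroup.centralizer ({z} : Set G))} :
      Set (Subgroup.centralizer ({z} : Set G)))) →*
    (↥(Subgroup.centralizer ({t} : Set G)) ⧸
      (Subgroup.zpowers t).subgroupOf (Subgroup.centralizer ({t} : Set G))) :=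
  (QuotientGroup.mk' _).comp (toHt htc)

/-- the map onto `Co2` -/
noncomputable def ρA (hP : MonPack z Q e ψ) {t : G} (htc : t ∈ Subgroup.centralizer ({z} : Set G))
    (hL : Lf ψ Spor.leechU (⟨t, htc⟩ : Subgroup.centralizer ({z} : Set G))) :
    ↥(Subgroup.centralizer ({(⟨t, htc⟩ : Subgroup.centralizer ({z} : Set G))} :
      Set (Subgroup.centralizer ({z} : Set G)))) →* ↥Spor.Co2 :=
  stabEquivCo2.toMonoidHom.comp (rho0 hP.hψ hP.hX hL sqNorm_leechU)

/-- `z` in the centraliser of `t` -/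
def ζA {t : G} (htc : t ∈ Subgroup.centralizer ({z} : Set G)) :
    ↥(Subgroup.centralizer ({(⟨t, htc⟩ : Subgroup.centralizer ({z} : Set G))} :
      Set (Subgroup.centralizer ({z} : Set G)))) :=
  ⟨zC z, Subgroup.mem_centralizer_singleton_iff.2 (zC_comm _)⟩

/-- `t` in the centraliser of `t` -/
def τA {t : G} (htc : t ∈ Subgroup.centralizer ({z} : Set G)) :
    ↥(Subgroup.centralizer ({(⟨t, htc⟩ : Subgroup.centralizer ({z} : Set G))} :
      Set (Subgroup.centralizer ({z} : Set G)))) :=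
  ⟨⟨t, htc⟩, Subgroup.mem_centralizer_singleton_iff.2 rfl⟩

/-- the lifting relation -/
def LA (ψ : leechLattice → Q ⧸ Subgroup.center Q) {t : G}
    (htc : t ∈ Subgroup.centralizer ({z} : Set G)) (x : leechPerpU)
    (r : ↥(Subgroup.centralizer ({(⟨t, htc⟩ : Subgroup.centralizer ({z} : Set G))} :
      Set (Subgroup.centralizer ({z} : Set G))))) : Prop :=
  Lf ψ (x : leechLattice) (r : Subgroup.centralizer ({z} : Set G))

theorem ρA_eq_one_iff (hP : MonPack z Q e ψ) {t : G}
    (htc : t ∈ Subgroup.centralizer ({z} : Set G))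
    (hL : Lf ψ Spor.leechU (⟨t, htc⟩ : Subgroup.centralizer ({z} : Set G)))
    (a : ↥(Subgroup.centralizer ({(⟨t, htc⟩ : Subgroup.centralizer ({z} : Set G))} :
      Set (Subgroup.centralizer ({z} : Set G))))) :
    ρA hP htc hL a = 1 ↔ (a : Subgroup.centralizer ({z} : Set G)) ∈ Q := by
  rw [← rho0_eq_one_iff hP.hψ hP.hX hL sqNorm_leechU]
  exact MulEquiv.map_eq_one_iff stabEquivCo2

theorem ρA_smul (hP : MonPack z Q e ψ) {t : G}
    (htc : t ∈ Subgroup.centralizer ({z} : Set G))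
    (hL : Lf ψ Spor.leechU (⟨t, htc⟩ : Subgroup.centralizer ({z} : Set G)))
    (a : ↥(Subgroup.centralizer ({(⟨t, htc⟩ : Subgroup.centralizer ({z} : Set G))} :
      Set (Subgroup.centralizer ({z} : Set G))))) {x : leechLattice}
    {r : Subgroup.centralizer ({z} : Set G)} (hr : Lf ψ x r) :
    Lf ψ (ρA hP htc hL a • x) ((a : Subgroup.centralizer ({z} : Set G)) * r *
      (a : Subgroup.centralizer ({z} : Set G))⁻¹) :=
  hP.hψ.conj (rho0_spec hP.hψ hP.hX hL sqNorm_leechU a) hr

end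

section

variable {G : Type u} [Group G] [Finite G] {z : G}
  {Q : Subgroup (Subgroup.centralizer ({z} : Set G))} [hQn : Q.Normal]
  {e : (Subgroup.centralizer ({z} : Set G)) ⧸ Q ≃* Spor.Co1}
  {ψ : leechLattice → Q ⧸ Subgroup.center Q}
  (hF : CoFacts) (hP : MonPack z Q e ψ) {t : G} (htc : t ∈ Subgroup.centralizer ({z} : Set G))
  (hL : Lf ψ Spor.leechU (⟨t, htc⟩ : Subgroup.centralizer ({z} : Set G)))

include hF hP hL

theorem tC_sq : (⟨t, htc⟩ : Subgroup.centralizer ({z} : Set G)) * (⟨t, htc⟩ : Subgroup.centralizer ({z} : Set G)) = 1 := by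
  rw [hP.hψ.sq_iff hP.hX hF.hU hP.big hL, sqNorm_leechU]

theorem t_sq : t * t = 1 := congrArg Subtype.val (tC_sq hF hP htc hL)

omit hF in
theorem tC_ne : (⟨t, htc⟩ : Subgroup.centralizer ({z} : Set G)) ≠ 1 ∧ (⟨t, htc⟩ : Subgroup.centralizer ({z} : Set G)) ≠ zC z := by
  have h0 := fun hc => not_double (Or.inl sqNorm_leechU) ((hP.hψ.central_iff hP.hX hL).1 hc)
  exact ⟨fun h => h0 (Or.inl h), fun h => h0 (Or.inr h)⟩

omit hF in
theorem t_ne_one : t ≠ 1 := fun h => (tC_ne hP htc hL).1 (Subtype.ext h)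

omit hF in
theorem t_ne_z : t ≠ z := fun h => (tC_ne hP htc hL).2 (Subtype.ext h)

theorem bm_hrange
    [hn : ((Subgroup.zpowers t).subgroupOf (Subgroup.centralizer ({t} : Set G))).Normal]
    (x : ↥(Subgroup.centralizer ({t} : Set G)) ⧸
      (Subgroup.zpowers t).subgroupOf (Subgroup.centralizer ({t} : Set G)))
    (hx : x * fA htc (ζA htc) = fA htc (ζA htc) * x) : x ∈ (fA htc).range := by
  obtain ⟨x, rfl⟩ := QuotientGroup.mk_surjective x
  have h1 : (QuotientGroup.mk (x * toHt htc (ζA htc)) : ↥(Subgroup.centralizer ({t} : Set G)) ⧸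
      (Subgroup.zpowers t).subgroupOf (Subgroup.centralizer ({t} : Set G))) =
      QuotientGroup.mk (toHt htc (ζA htc) * x) := hx
  rw [QuotientGroup.eq] at h1
  have h2 : ((x : G) * z)⁻¹ * (z * (x : G)) ∈ Subgroup.zpowers t := h1
  have hxt := Subgroup.mem_centralizer_singleton_iff.1 x.2
  rcases (mem_zpowers_of_sq (t_sq hF hP htc hL)).1 h2 with h3 | h3
  · have h4 : (x : G) * z = z * (x : G) := (inv_mul_eq_one.1 h3)
    have hxz : (x : G) ∈ Subgroup.centralizer ({z} : Set G) :=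
      Subgroup.mem_centralizer_singleton_iff.2 h4
    refine ⟨⟨⟨x, hxz⟩, ?_⟩, rfl⟩
    rw [Subgroup.mem_centralizer_singleton_iff]
    exact Subtype.ext hxt
  · exfalso
    have h5 := hP.no32 hF.hCo1 hF.hCo2 (Lf.mul_z hP.hX hL) sqNorm_leechU
    apply h5
    rw [isConj_iff]
    refine ⟨(x : G)⁻¹, ?_⟩
    show (x : G)⁻¹ * z * (x : G)⁻¹⁻¹ = t * z
    have htz : t * z = z * t := Subgroup.mem_centralizer_singleton_iff.1 htc
    calc (x : G)⁻¹ * z * (x : G)⁻¹⁻¹ = z * (((x : G) * z)⁻¹ * (z * (x : G))) := by group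
      _ = t * z := by rw [h3, htz]

omit hP hL hF in
theorem bm_hker (ht2 : t * t = 1)
    [hn : ((Subgroup.zpowers t).subgroupOf (Subgroup.centralizer ({t} : Set G))).Normal]
    (a : ↥(Subgroup.centralizer ({(⟨t, htc⟩ : Subgroup.centralizer ({z} : Set G))} : Set (Subgroup.centralizer ({z} : Set G))))) : fA htc a = 1 ↔ a = 1 ∨ a = τA htc := by
  have h1 : fA htc a = 1 ↔ ((a : ↥(Subgroup.centralizer ({z} : Set G))) : G) ∈ Subgroup.zpowers t :=
    QuotientGroup.eq_one_iff (toHt htc a)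
  rw [h1, mem_zpowers_of_sq ht2]
  constructor
  · rintro (h | h)
    · left; exact Subtype.ext (Subtype.ext h)
    · right; exact Subtype.ext (Subtype.ext h)
  · rintro (h | h)
    · left; rw [h]; rfl
    · right; rw [h]; rfl

omit hF in
theorem bm_comm (x y : ↥(Subgroup.centralizer ({(⟨t, htc⟩ : Subgroup.centralizer ({z} : Set G))} : Set (Subgroup.centralizer ({z} : Set G))))) (hx : ρA hP htc hL x = 1) (hy : ρA hP htc hL y = 1) :
    x * y = y * x ∨ x * y = y * x * ζA htc := by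
  rw [ρA_eq_one_iff] at hx hy
  rcases hP.hX.comm x hx y hy with h | h
  · left; exact Subtype.ext h
  · right
    apply Subtype.ext
    show (x : ↥(Subgroup.centralizer ({z} : Set G))) * (y : ↥(Subgroup.centralizer ({z} : Set G))) = (y : ↥(Subgroup.centralizer ({z} : Set G))) * (x : ↥(Subgroup.centralizer ({z} : Set G))) * zC z
    rw [h, zC_comm]

omit hF in
theorem bm_cen (c : ↥(Subgroup.centralizer ({(⟨t, htc⟩ : Subgroup.centralizer ({z} : Set G))} : Set (Subgroup.centralizer ({z} : Set G))))) (hc : ρA hP htc hL c = 1)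
    (hcy : ∀ y : ↥(Subgroup.centralizer ({(⟨t, htc⟩ : Subgroup.centralizer ({z} : Set G))} : Set (Subgroup.centralizer ({z} : Set G)))), ρA hP htc hL y = 1 → c * y = y * c) :
    c = 1 ∨ c = ζA htc ∨ c = τA htc ∨ c = τA htc * ζA htc := by
  rw [ρA_eq_one_iff] at hc
  have hne := tC_ne hP htc hL
  have hidx := hP.hX.relIndex_centralizer hL.mem hne.1 hne.2
  have := hP.hX.mem_of_centralizes hidx (c := (⟨t, htc⟩ : Subgroup.centralizer ({z} : Set G))) (d := (c : ↥(Subgroup.centralizer ({z} : Set G)))) hL.mem hc ?_ ?_ hne.1 hne.2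
  · rcases this with h | h | h | h
    · left; exact Subtype.ext h
    · right; left; exact Subtype.ext h
    · right; right; left; exact Subtype.ext h
    · right; right; right; exact Subtype.ext h
  · intro r hr
    exact (Subgroup.mem_centralizer_singleton_iff.1 hr.2).symm
  · intro r hr
    have := hcy ⟨r, hr.2⟩ ((ρA_eq_one_iff hP htc hL _).2 hr.1)
    exact congrArg Subtype.val this

omit hF in
theorem bm_card : Nat.card (ρA hP htc hL).ker = 2 ^ 24 := by
  have hne := tC_ne hP htc hL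
  have h1 := card_inf_centralizer hP.hX hP.hcard (Ne.symm hne.2) hne.1 hL.mem
  rw [← h1]
  have h2 : (ρA hP htc hL).ker = (Q ⊓ Subgroup.centralizer {(⟨t, htc⟩ : Subgroup.centralizer ({z} : Set G))}).subgroupOf
      (Subgroup.centralizer {(⟨t, htc⟩ : Subgroup.centralizer ({z} : Set G))}) := by
    ext a
    rw [MonoidHom.mem_ker, ρA_eq_one_iff, Subgroup.mem_subgroupOf, Subgroup.mem_inf]
    exact ⟨fun h => ⟨h, a.2⟩, fun h => h.1⟩
  rw [h2]
  exact Nat.card_congr (Subgroup.subgroupOfEquivOfLe inf_le_right).toEquiv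

omit hP hL in
theorem bm_simple : IsSimpleGroup ↥Spor.Co2 := by
  have := (hF.hCo2 Spor.leechU sqNorm_leechU).1
  exact stabEquivCo2.symm.isSimpleGroup

omit hP hL in
theorem bm_not2 : ¬ IsPGroup 2 ↥Spor.Co2 := by
  intro hp
  have hcard : Nat.card ↥Spor.Co2 = 42305421312000 := by
    rw [← Nat.card_congr stabEquivCo2.toEquiv, (hF.hCo2 Spor.leechU sqNorm_leechU).2]
  have : Finite ↥Spor.Co2 := Nat.finite_of_card_ne_zero (by rw [hcard]; norm_num)
  obtain ⟨k, hk⟩ := (IsPGroup.iff_card (p := 2)).1 hp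
  rw [hcard] at hk
  have h3 : 3 ∣ 2 ^ k := by rw [← hk]; norm_num
  have := Nat.Prime.dvd_of_dvd_pow Nat.prime_three h3
  omega

theorem bm_L1 (x : leechPerpU) : ∃ r : ↥(Subgroup.centralizer ({(⟨t, htc⟩ : Subgroup.centralizer ({z} : Set G))} : Set (Subgroup.centralizer ({z} : Set G)))), LA ψ htc x r := by
  obtain ⟨q, hq⟩ := exists_x ψ (x : leechLattice)
  have h1 : q * (⟨t, htc⟩ : Subgroup.centralizer ({z} : Set G)) = (⟨t, htc⟩ : Subgroup.centralizer ({z} : Set G)) * q := (hP.hψ.comm_iff hP.hX hF.hU hP.big hq hL).2 x.2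
  exact ⟨⟨q, Subgroup.mem_centralizer_singleton_iff.2 h1⟩, hq⟩

theorem bm_L2 (r : ↥(Subgroup.centralizer ({(⟨t, htc⟩ : Subgroup.centralizer ({z} : Set G))} : Set (Subgroup.centralizer ({z} : Set G))))) (hr : ρA hP htc hL r = 1) : ∃ x : leechPerpU, LA ψ htc x r := by
  rw [ρA_eq_one_iff] at hr
  obtain ⟨x, hx⟩ := hP.hψ.exists_v hr
  have h1 := (hP.hψ.comm_iff hP.hX hF.hU hP.big hx hL).1
    (Subgroup.mem_centralizer_singleton_iff.1 r.2)
  exact ⟨⟨x, h1⟩, hx⟩

omit hF in
theorem bm_L5 (x : leechPerpU) (r : ↥(Subgroup.centralizer ({(⟨t, htc⟩ : Subgroup.centralizer ({z} : Set G))} : Set (Subgroup.centralizer ({z} : Set G))))) (hr : LA ψ htc x r) :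
    ((r = 1 ∨ r = ζA htc ∨ r = τA htc ∨ r = τA htc * ζA htc) ↔
    ((∃ w : leechLattice, (x : leechLattice) = w + w) ∨
      ∃ w : leechLattice, (x : leechLattice) = Spor.leechU + (w + w))) := by
  have hr' : Lf ψ (x : leechLattice) (r : ↥(Subgroup.centralizer ({z} : Set G))) := hr
  constructor
  · rintro (h | h | h | h)
    · left; exact (hP.hψ.central_iff hP.hX hr').1 (Or.inl (congrArg Subtype.val h))
    · left; exact (hP.hψ.central_iff hP.hX hr').1 (Or.inr (congrArg Subtype.val h))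
    · right
      have h1 : (r : ↥(Subgroup.centralizer ({z} : Set G))) = (⟨t, htc⟩ : Subgroup.centralizer ({z} : Set G)) := congrArg Subtype.val h
      rw [h1] at hr'
      exact hP.hψ.congr_of_lift hL hr'
    · right
      have h1 : (r : ↥(Subgroup.centralizer ({z} : Set G))) = (⟨t, htc⟩ : Subgroup.centralizer ({z} : Set G)) * zC z := congrArg Subtype.val h
      rw [h1] at hr'
      exact hP.hψ.congr_of_lift (Lf.mul_z hP.hX hL) hr'
  · rintro (h | ⟨w, hw⟩)
    · rcases (hP.hψ.central_iff hP.hX hr').2 h with h1 | h1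
      · left; exact Subtype.ext h1
      · right; left; exact Subtype.ext h1
    · have h1 : Lf ψ (x : leechLattice) (⟨t, htc⟩ : Subgroup.centralizer ({z} : Set G)) := by rw [hw]; exact hP.hψ.congr hL w
      rcases Lf.unique hP.hX h1 hr' with h2 | h2
      · right; right; left; exact Subtype.ext h2
      · right; right; right; exact Subtype.ext h2

theorem bm_faith : ∃ g : ↥Spor.Co2, ∀ a : ↥(Subgroup.centralizer ({(⟨t, htc⟩ : Subgroup.centralizer ({z} : Set G))} : Set (Subgroup.centralizer ({z} : Set G)))), ρA hP htc hL a = g →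
    ¬ (∀ r : ↥(Subgroup.centralizer ({(⟨t, htc⟩ : Subgroup.centralizer ({z} : Set G))} : Set (Subgroup.centralizer ({z} : Set G)))), ρA hP htc hL r = 1 → a * r = r * a ∨ a * r = r * a * τA htc) := by
  by_contra hcon
  push Not at hcon
  have D0 := c1_cls 0 (by simp [c1Vals])
  have hu : ∃ g : ↥Co0, g • Spor.leechU = lv bA0 := to_la0 (x := Spor.leechU) sqNorm_leechU
  have hcount : (C1 0 Spor.leechU).ncard = 93150 := D0.count' hu
  have hne : (C1 0 Spor.leechU).Nonempty :=
    Set.nonempty_of_ncard_ne_zero (by rw [hcount]; norm_num)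
  obtain ⟨x0, hx0⟩ := hne
  have hx0n : sqNorm (x0 : GolayPt → ℤ) = 32 := hx0.1
  have hx0d : dotInt (Spor.leechU : GolayPt → ℤ) (x0 : GolayPt → ℤ) = 0 := hx0.2
  have hx0d' : dotInt (x0 : GolayPt → ℤ) (Spor.leechU : GolayPt → ℤ) = 0 := by
    rw [← hx0d]; simp only [dotInt, mul_comm]
  have hsub : C1 0 Spor.leechU ⊆ {x0, -x0} := by
    intro y hy
    have hyn : sqNorm (y : GolayPt → ℤ) = 32 := hy.1
    obtain ⟨γ, hγu, hγx⟩ := D0.trans' hu hx0 hy
    obtain ⟨a, ha, hcomm⟩ := hcon (stabEquivCo2 ⟨γ, hγu⟩)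
    obtain ⟨r0, hr0⟩ := bm_L1 hF hP htc hL ⟨x0, by
      show (16 : ℤ) ∣ dotInt (x0 : GolayPt → ℤ) Spor.vecU
      have : dotInt (x0 : GolayPt → ℤ) Spor.vecU = 0 := hx0d'
      rw [this]; exact dvd_zero _⟩
    have hr0' : Lf ψ x0 (r0 : ↥(Subgroup.centralizer ({z} : Set G))) := hr0
    have h1 := ρA_smul hP htc hL a hr0'
    rw [ha] at h1
    have h2 : stabEquivCo2 ⟨γ, hγu⟩ • x0 = y := hγx
    rw [h2] at h1
    have hy0 : (y : GolayPt → ℤ) ≠ 0 := fun h0 =>
      ne_zero_of_norm (v := y) (by rw [hyn]; norm_num) (Subtype.ext h0)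
    rcases hcomm r0 ((ρA_eq_one_iff hP htc hL r0).2 hr0'.mem) with h3 | h3
    · have h4 : (a : ↥(Subgroup.centralizer ({z} : Set G))) * (r0 : ↥(Subgroup.centralizer ({z} : Set G))) * (a : ↥(Subgroup.centralizer ({z} : Set G)))⁻¹ = (r0 : ↥(Subgroup.centralizer ({z} : Set G))) := by
        have : (a : ↥(Subgroup.centralizer ({z} : Set G))) * (r0 : ↥(Subgroup.centralizer ({z} : Set G))) = (r0 : ↥(Subgroup.centralizer ({z} : Set G))) * (a : ↥(Subgroup.centralizer ({z} : Set G))) := congrArg Subtype.val h3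
        rw [this]; group
      rw [h4] at h1
      obtain ⟨w, hw⟩ := hP.hψ.congr_of_lift hr0' h1
      have h5 := Cfsg.Agent.S5551.result (x0 : GolayPt → ℤ) (y : GolayPt → ℤ) x0.2 y.2
        (fun h0 => ne_zero_of_norm (v := x0) (by rw [hx0n]; norm_num) (Subtype.ext h0)) hy0
        (by rw [hx0n]; norm_num) (by rw [hyn]; norm_num)
        ⟨-(w : GolayPt → ℤ), leechLattice.neg_mem w.2, by
          have := congrArg (fun t : leechLattice => (t : GolayPt → ℤ)) hw
          simp only [AddSubgroup.coe_add] at this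
          rw [this, two_smul]; abel⟩
      rcases h5.2 (by rw [hx0n]; norm_num) with h6 | h6
      · left; exact Subtype.ext h6
      · right; exact Subtype.ext h6
    · exfalso
      have h4 : (a : ↥(Subgroup.centralizer ({z} : Set G))) * (r0 : ↥(Subgroup.centralizer ({z} : Set G))) * (a : ↥(Subgroup.centralizer ({z} : Set G)))⁻¹ = (r0 : ↥(Subgroup.centralizer ({z} : Set G))) * (⟨t, htc⟩ : Subgroup.centralizer ({z} : Set G)) := by
        have e1 : (a : ↥(Subgroup.centralizer ({z} : Set G))) * (r0 : ↥(Subgroup.centralizer ({z} : Set G))) = (r0 : ↥(Subgroup.centralizer ({z} : Set G))) * (a : ↥(Subgroup.centralizer ({z} : Set G))) * (⟨t, htc⟩ : Subgroup.centralizer ({z} : Set G)) := congrArg Subtype.val h3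
        have e2 : (a : ↥(Subgroup.centralizer ({z} : Set G))) * (⟨t, htc⟩ : Subgroup.centralizer ({z} : Set G)) = (⟨t, htc⟩ : Subgroup.centralizer ({z} : Set G)) * (a : ↥(Subgroup.centralizer ({z} : Set G))) := Subgroup.mem_centralizer_singleton_iff.1 a.2
        calc (a : ↥(Subgroup.centralizer ({z} : Set G))) * (r0 : ↥(Subgroup.centralizer ({z} : Set G))) * (a : ↥(Subgroup.centralizer ({z} : Set G)))⁻¹ = (r0 : ↥(Subgroup.centralizer ({z} : Set G))) * ((a : ↥(Subgroup.centralizer ({z} : Set G))) * (⟨t, htc⟩ : Subgroup.centralizer ({z} : Set G))) * (a : ↥(Subgroup.centralizer ({z} : Set G)))⁻¹ := by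
              rw [e1]; group
          _ = (r0 : ↥(Subgroup.centralizer ({z} : Set G))) * (⟨t, htc⟩ : Subgroup.centralizer ({z} : Set G)) := by rw [e2]; group
      rw [h4] at h1
      obtain ⟨w, hw⟩ := hP.hψ.congr_of_lift (hP.hψ.mul hr0' hL) h1
      have hsum : sqNorm ((x0 + Spor.leechU : leechLattice) : GolayPt → ℤ) = 64 := by
        have := sqNorm_add (x0 : GolayPt → ℤ) (Spor.leechU : GolayPt → ℤ)
        rw [hx0n, hx0d', sqNorm_leechU] at this
        rw [AddSubgroup.coe_add, this]; norm_num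
      have h5 := Cfsg.Agent.S5551.result ((x0 + Spor.leechU : leechLattice) : GolayPt → ℤ)
        (y : GolayPt → ℤ) (x0 + Spor.leechU).2 y.2
        (fun h0 => ne_zero_of_norm (v := x0 + Spor.leechU) (by rw [hsum]; norm_num)
          (Subtype.ext h0)) hy0
        (by rw [hsum]) (by rw [hyn]; norm_num)
        ⟨-(w : GolayPt → ℤ), leechLattice.neg_mem w.2, by
          have := congrArg (fun t : leechLattice => (t : GolayPt → ℤ)) hw
          simp only [AddSubgroup.coe_add] at this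
          rw [this, two_smul, AddSubgroup.coe_add]; abel⟩
      rw [hsum, hyn] at h5
      have := h5.1
      omega
  have h1 : (C1 0 Spor.leechU).ncard ≤ ({x0, -x0} : Set leechLattice).ncard :=
    Set.ncard_le_ncard hsub (Set.toFinite _)
  have h2 : ({x0, -x0} : Set leechLattice).ncard ≤ 2 :=
    (Set.ncard_insert_le _ _).trans (by simp)
  omega

/-- the data, up to the weak closure clause -/
theorem bmData_of
    [hn : ((Subgroup.zpowers t).subgroupOf (Subgroup.centralizer ({t} : Set G))).Normal]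
    (hwc : ∃ (g : ↥(Subgroup.centralizer ({t} : Set G)) ⧸
      (Subgroup.zpowers t).subgroupOf (Subgroup.centralizer ({t} : Set G))) (r : ↥(Subgroup.centralizer ({(⟨t, htc⟩ : Subgroup.centralizer ({z} : Set G))} : Set (Subgroup.centralizer ({z} : Set G))))),
      ρA hP htc hL r = 1 ∧ g * fA htc (ζA htc) * g⁻¹ = fA htc r ∧ r ≠ ζA htc ∧
        r ≠ τA htc * ζA htc) :
    BMData (fA htc) (ρA hP htc hL) (ζA htc) (τA htc) (LA ψ htc) where
  hrange := bm_hrange hF hP htc hL
  hζc a := Subtype.ext (zC_comm (a : ↥(Subgroup.centralizer ({z} : Set G)))).symm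
  hker := bm_hker htc (t_sq hF hP htc hL)
  hτ1 h := (tC_ne hP htc hL).1 (congrArg Subtype.val h)
  hζ1 h := hP.hX.zne (congrArg Subtype.val h)
  hζτ h := (tC_ne hP htc hL).2 (congrArg Subtype.val h).symm
  hζ2 := Subtype.ext hP.hX.zsq
  hτ2 := Subtype.ext (tC_sq hF hP htc hL)
  hζR := (ρA_eq_one_iff hP htc hL _).2 hP.hX.zmem
  hτR := (ρA_eq_one_iff hP htc hL _).2 hL.mem
  hρs := stabEquivCo2.surjective.comp (rho0_surj hP.hψ hP.hX hL sqNorm_leechU)
  comm := bm_comm hP htc hL
  cen := bm_cen hP htc hL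
  hcard := bm_card hP htc hL
  hsimple := bm_simple hF
  hnot2 := bm_not2 hF
  hfaith := bm_faith hF hP htc hL
  hwc := hwc
  L0 x r h := (ρA_eq_one_iff hP htc hL r).2 h.mem
  L1 := bm_L1 hF hP htc hL
  L2 := bm_L2 hF hP htc hL
  L3 x y r r' h1 h2 := hP.hψ.mul h1 h2
  L4 x r r' h1 h2 := by
    rcases Lf.unique hP.hX h1 h2 with h | h
    · left; exact Subtype.ext h
    · right; exact Subtype.ext h
  L5 := bm_L5 hP htc hL
  L6 a x y r h1 h2 := by
    have := ρA_smul hP htc hL a h1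
    rw [h2] at this
    exact this

end

end Cfsg.Agent.Lib.Helper33
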