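import Cfsg.Agent.Lib.Helper33.MonBase2
import Cfsg.Agent.Lib.Helper9.CoCenter
import Cfsg.Agent.S5551

set_option autoImplicit false

namespace Cfsg.Agent.Lib.Helper33

open Cfsg MulAction

theorem negEl_mem_center : Cfsg.Agent.Lib.Helper9.negEl ∈ Subgroup.center ↥Co0 := by
  rw [Subgroup.mem_center_iff]
  exact fun g => Cfsg.Agent.Lib.Helper9.negEl_comm g

theorem ne_zero_of_norm {v : leechLattice} (hv : sqNorm (v : GolayPt → ℤ) ≠ 0) : v ≠ 0 := by
  rintro rfl
  apply hv
  simp [sqNorm]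

theorem neg_ne_self {v : leechLattice} (hv : v ≠ 0) : -v ≠ v := by
  intro h
  apply hv
  apply Subtype.ext
  funext i
  have h1 := congrArg (fun t : leechLattice => (t : GolayPt → ℤ) i) h
  simp only [AddSubgroup.coe_neg, Pi.neg_apply] at h1
  show (v : GolayPt → ℤ) i = 0
  omega

/-- the map from a vector stabiliser to the quotient by the centre -/
noncomputable def stabToCo1 (v : leechLattice) : ↥(stabilizer ↥Co0 v) →* Spor.Co1 :=
  (QuotientGroup.mk' (Subgroup.center ↥Co0)).comp (stabilizer ↥Co0 v).subtype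

theorem stabToCo1_injective {v : leechLattice} (hv : v ≠ 0) :
    Function.Injective (stabToCo1 v) := by
  rw [injective_iff_map_eq_one]
  rintro ⟨a, ha⟩ h
  have h1 : a ∈ Subgroup.center ↥Co0 := (QuotientGroup.eq_one_iff a).1 h
  rcases Cfsg.Agent.Lib.Helper9.center_cases a h1 with h2 | h2
  · exact Subtype.ext h2
  · exfalso
    rw [mem_stabilizer_iff, h2, Cfsg.Agent.Lib.Helper9.negEl_apply] at ha
    exact neg_ne_self hv ha

section clevel

variable {C : Type*} [Group C] {Q : Subgroup C} [hQn : Q.Normal]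
variable {e : C ⧸ Q ≃* Spor.Co1} {ψ : leechLattice → Q ⧸ Subgroup.center Q} {ζ : C}

/-- the projection onto `Co1` -/
noncomputable def piC (e : C ⧸ Q ≃* Spor.Co1) : C →* Spor.Co1 :=
  e.toMonoidHom.comp (QuotientGroup.mk' Q)

theorem piC_apply (h : C) : piC e h = e (QuotientGroup.mk h) := rfl

theorem piC_ker : (piC e).ker = Q := by
  ext x
  rw [MonoidHom.mem_ker, piC_apply, MulEquiv.map_eq_one_iff, QuotientGroup.eq_one_iff]

/-- 2-subgroups of `C` meet `Q` in index at most `2 ^ 21` -/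
theorem card_le_of_pgroup (hCo1 : Nat.card Spor.Co1 = 4157776806543360000)
    (e : C ⧸ Q ≃* Spor.Co1) (P : Subgroup C) [Finite P] (hP : IsPGroup 2 P) :
    Nat.card P ≤ 2 ^ 21 * Nat.card (P ⊓ Q : Subgroup C) := by
  have hidx : Q.index = 4157776806543360000 := by
    rw [Subgroup.index_eq_card, Nat.card_congr e.toEquiv, hCo1]
  have h1 : Q.relIndex P ∣ Q.index := Subgroup.relIndex_dvd_index_of_normal Q P
  have h2 : Q.relIndex P ∣ Nat.card P := Subgroup.relIndex_dvd_card Q P
  obtain ⟨k, hk⟩ := (IsPGroup.iff_card (p := 2)).1 hP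
  rw [hk] at h2
  obtain ⟨j, _, hj⟩ := (Nat.dvd_prime_pow Nat.prime_two).1 h2
  have hj21 : j ≤ 21 := by
    by_contra hcon
    push Not at hcon
    have h3 : 2 ^ 22 ∣ Q.relIndex P := by rw [hj]; exact pow_dvd_pow 2 hcon
    have h4 := h3.trans h1
    rw [hidx] at h4
    revert h4
    norm_num
  have h5 := Subgroup.relIndex_mul_relIndex (⊥ : Subgroup C) (P ⊓ Q) P bot_le inf_le_left
  rw [Subgroup.relIndex_bot_left, Subgroup.relIndex_bot_left, Subgroup.inf_relIndex_left, hj] at h5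
  rw [← h5, mul_comm]
  exact Nat.mul_le_mul_right _ (Nat.pow_le_pow_right (by norm_num) hj21)

/-- the image in `Co1` of the centraliser of a lift of a minimal vector -/
theorem LIso.map_centralizer (hψ : LIso e ψ) (hX : XS Q ζ) {v : leechLattice} {s : C}
    (hs : Lf ψ v s) (hv : sqNorm (v : GolayPt → ℤ) = 32) :
    (Subgroup.centralizer {s}).map (piC e) = (stabToCo1 v).range := by
  have hv0 : v ≠ 0 := ne_zero_of_norm (by rw [hv]; norm_num)
  apply le_antisymm
  · rintro _ ⟨h, hh, rfl⟩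
    have hh' : h * s = s * h := Subgroup.mem_centralizer_singleton_iff.1 hh
    obtain ⟨g, hg⟩ := exists_g e h
    have h1 := hψ.conj hg hs
    have h2 : h * s * h⁻¹ = s := by rw [hh']; group
    rw [h2] at h1
    obtain ⟨_, h3⟩ := h1
    obtain ⟨_, h4⟩ := hs
    have h5 : ψ (g • v + v) = 1 := by
      rw [hψ.add, h3, ← h4, ← hψ.add]
      exact (hψ.ker _).2 ⟨v, rfl⟩
    obtain ⟨w, hw⟩ := (hψ.ker _).1 h5
    have hgn : sqNorm ((g • v : leechLattice) : GolayPt → ℤ) = 32 := by rw [co0_sqNorm, hv]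
    have hnn : sqNorm ((-v : leechLattice) : GolayPt → ℤ) = 32 := by
      rw [← Cfsg.Agent.Lib.Helper9.negEl_apply, co0_sqNorm, hv]
    have h6 := Cfsg.Agent.S5551.result ((g • v : leechLattice) : GolayPt → ℤ)
      ((-v : leechLattice) : GolayPt → ℤ) (g • v).2 (-v).2
      (fun h0 => ne_zero_of_norm (v := g • v) (by rw [hgn]; norm_num) (Subtype.ext h0))
      (fun h0 => ne_zero_of_norm (v := -v) (by rw [hnn]; norm_num) (Subtype.ext h0))
      (by rw [hgn]; norm_num) (by rw [hnn]; norm_num)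
      ⟨w, w.2, by
        have := congrArg (fun t : leechLattice => (t : GolayPt → ℤ)) hw
        simp only [AddSubgroup.coe_add] at this
        rw [two_smul, ← this, AddSubgroup.coe_neg]; abel⟩
    rcases h6.2 (by rw [hgn]; norm_num) with h7 | h7
    · -- g v = - v
      have h8 : g • v = -v := (Subtype.ext h7).symm
      have h9 : Cfsg.Agent.Lib.Helper9.negEl * g ∈ stabilizer ↥Co0 v := by
        rw [mem_stabilizer_iff, mul_smul, h8, Cfsg.Agent.Lib.Helper9.negEl_apply, neg_neg]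
      refine ⟨⟨_, h9⟩, ?_⟩
      show (QuotientGroup.mk (Cfsg.Agent.Lib.Helper9.negEl * g) : Spor.Co1) = piC e h
      rw [piC_apply, ← hg, QuotientGroup.mk_mul,
        (QuotientGroup.eq_one_iff _).2 negEl_mem_center, one_mul]
    · have h8 : g • v = v := by
        have : -v = -(g • v) := Subtype.ext h7
        exact (neg_injective this).symm
      refine ⟨⟨g, h8⟩, ?_⟩
      show (QuotientGroup.mk g : Spor.Co1) = piC e h
      rw [piC_apply, ← hg]
  · rintro _ ⟨⟨g, hgv⟩, rfl⟩
    obtain ⟨h, hg⟩ := exists_h e g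
    have h1 := hψ.conj hg hs
    rw [mem_stabilizer_iff] at hgv
    rw [hgv] at h1
    rcases Lf.unique hX hs h1 with h2 | h2
    · refine ⟨h, ?_, ?_⟩
      · show h ∈ Subgroup.centralizer {s}
        rw [Subgroup.mem_centralizer_singleton_iff]
        calc h * s = (h * s * h⁻¹) * h := by group
          _ = s * h := by rw [h2]
      · show piC e h = (QuotientGroup.mk g : Spor.Co1)
        rw [piC_apply, ← hg]
    · have hnc : ¬ (s = 1 ∨ s = ζ) := fun hc =>
        not_double (Or.inl hv) ((hψ.central_iff hX hs).1 hc)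
      push Not at hnc
      obtain ⟨y, hy, hys⟩ := hX.conj_z hs.mem hnc.1 hnc.2
      refine ⟨y⁻¹ * h, ?_, ?_⟩
      · show y⁻¹ * h ∈ Subgroup.centralizer {s}
        rw [Subgroup.mem_centralizer_singleton_iff]
        calc y⁻¹ * h * s = y⁻¹ * (h * s * h⁻¹) * h := by group
          _ = y⁻¹ * (y * s * y⁻¹) * h := by rw [h2, hys]
          _ = s * (y⁻¹ * h) := by group
      · show piC e (y⁻¹ * h) = (QuotientGroup.mk g : Spor.Co1)
        have hy1 : piC e y⁻¹ = 1 := by
          rw [← MonoidHom.mem_ker, piC_ker]; exact Q.inv_mem hy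
        rw [map_mul, hy1, one_mul, piC_apply, ← hg]

/-- normal 2-subgroups of the centraliser of a lift of a minimal vector lie in `Q` -/
theorem LIso.le_of_normal_pgroup (hψ : LIso e ψ) (hX : XS Q ζ)
    (hCo2 : ∀ v : leechLattice, sqNorm (v : GolayPt → ℤ) = 32 → IsCo2 ↥(stabilizer ↥Co0 v))
    {v : leechLattice} {s : C}
    (hs : Lf ψ v s) (hv : sqNorm (v : GolayPt → ℤ) = 32) (N : Subgroup C)
    (hN : N ≤ Subgroup.centralizer {s}) (hp : IsPGroup 2 N)
    (hnorm : ∀ h ∈ Subgroup.centralizer {s}, ∀ n ∈ N, h * n * h⁻¹ ∈ N) : N ≤ Q := by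
  have hv0 : v ≠ 0 := ne_zero_of_norm (by rw [hv]; norm_num)
  have hmap := hψ.map_centralizer hX hs hv
  obtain ⟨hsimp, hcard⟩ := hCo2 v hv
  have eqv := MonoidHom.ofInjective (stabToCo1_injective hv0)
  have hsimp' : IsSimpleGroup ↥(stabToCo1 v).range := eqv.symm.isSimpleGroup
  have hcard' : Nat.card ↥(stabToCo1 v).range = 42305421312000 := by
    rw [← Nat.card_congr eqv.toEquiv, hcard]
  have hM : N.map (piC e) ≤ (stabToCo1 v).range := by
    rw [← hmap]; exact Subgroup.map_mono hN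
  have hMn : ∀ h ∈ (stabToCo1 v).range, ∀ m ∈ N.map (piC e), h * m * h⁻¹ ∈ N.map (piC e) := by
    rw [← hmap]
    rintro _ ⟨h, hh, rfl⟩ _ ⟨n, hn, rfl⟩
    exact ⟨h * n * h⁻¹, hnorm h hh n hn, by simp⟩
  rcases simple_sub_normal hsimp' hM hMn with h1 | h1
  · rw [← piC_ker (e := e)]
    exact (Subgroup.map_eq_bot_iff N).1 h1
  · exfalso
    have hp' : IsPGroup 2 ↥(N.map (piC e)) := hp.map _
    rw [h1] at hp'
    have : Finite ↥(stabToCo1 v).range := Nat.finite_of_card_ne_zero (by rw [hcard']; norm_num)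
    obtain ⟨k, hk⟩ := (IsPGroup.iff_card (p := 2)).1 hp'
    rw [hcard'] at hk
    have h3 : 3 ∣ 2 ^ k := by rw [← hk]; norm_num
    have := Nat.Prime.dvd_of_dvd_pow Nat.prime_three h3
    omega

end clevel

end Cfsg.Agent.Lib.Helper33
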