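import Cfsg.Agent.Lib.Helper33.MonBM4
import Cfsg.Agent.Lib.Helper33.MonBM2
import Cfsg.Agent.Lib.Helper33.MonFinal
import Cfsg.Agent.Lib.Helper91.MonCo3

set_option autoImplicit false

namespace Cfsg.Agent.Lib.Helper33

open Cfsg MulAction Cfsg.Agent.Lib.Helper9 Cfsg.Agent.Lib.Helper11

section clevel

variable {C : Type*} [Group C] {Q : Subgroup C} [hQn : Q.Normal]
variable {e : C ⧸ Q ≃* Spor.Co1} {ψ : leechLattice → Q ⧸ Subgroup.center Q} {ζ : C}

/-- normal 2-subgroups of the centraliser of a lift of `x0` act as sign changes -/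
theorem LIso.sign_of_normal (hψ : LIso e ψ) (hX : XS Q ζ) {s : C} (hs : Lf ψ x0 s)
    (N : Subgroup C) (hN : N ≤ Subgroup.centralizer {s}) (hp : IsPGroup 2 N)
    (hnorm : ∀ h ∈ Subgroup.centralizer {s}, ∀ n ∈ N, h * n * h⁻¹ ∈ N)
    {y : C} (hy : y ∈ N) {γ : Co0} (hγ : (QuotientGroup.mk γ : Spor.Co1) = e (QuotientGroup.mk y)) :
    ∃ c, ∃ hc : c ∈ supports (golayCode : Set (GolayPt → ZMod 2)),
      γ = monoEl 1 M24.one_mem c hc := by
  have hmap := Cfsg.Agent.Lib.Helper91.map_centralizer64 hψ hX hs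
  set P : Subgroup ↥Co0 := (N.map (piC e)).comap (QuotientGroup.mk' (Subgroup.center ↥Co0)) with hPdef
  have hmemP : ∀ g : ↥Co0, g ∈ P ↔ ∃ r ∈ N, piC e r = (QuotientGroup.mk g : Spor.Co1) := by
    intro g
    rfl
  have hcross : ∀ n ∈ crossStab, ∃ h ∈ Subgroup.centralizer {s},
      piC e h = (QuotientGroup.mk n : Spor.Co1) := by
    intro n hn
    have : (QuotientGroup.mk n : Spor.Co1) ∈
        crossStab.map (QuotientGroup.mk' (Subgroup.center ↥Co0)) := ⟨n, hn, rfl⟩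
    rw [← hmap] at this
    exact this
  apply Cfsg.Agent.Lib.Helper91.sign_of_normal_two P
  · intro g hg
    obtain ⟨r, hr, hrg⟩ := (hmemP g).1 hg
    have h1 : piC e r ∈ (Subgroup.centralizer {s}).map (piC e) := ⟨r, hN hr, rfl⟩
    rw [hmap, hrg] at h1
    obtain ⟨n, hn, hng⟩ := h1
    have h2 : n⁻¹ * g ∈ Subgroup.center ↥Co0 := QuotientGroup.eq.1 hng
    rcases center_cases _ h2 with h3 | h3
    · have : g = n := (inv_mul_eq_one.1 h3).symm
      rw [this]; exact hn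
    · have : g = n * negEl := by rw [← h3]; group
      rw [this]
      exact crossStab.mul_mem hn Cfsg.Agent.Lib.Helper91.negEl_mem_crossStab
  · apply (hp.map (piC e)).comap_of_ker_isPGroup
    rw [QuotientGroup.ker_mk']
    exact IsPGroup.of_card (n := 1) (by rw [card_center_Co0]; norm_num)
  · intro n hn p hpP
    obtain ⟨h, hh, hhn⟩ := hcross n hn
    obtain ⟨r, hr, hrp⟩ := (hmemP p).1 hpP
    rw [hmemP]
    refine ⟨h * r * h⁻¹, hnorm h hh r hr, ?_⟩
    rw [map_mul, map_mul, map_inv, hhn, hrp]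
    rfl
  · rw [hmemP]
    exact ⟨y, hy, hγ.symm⟩

end clevel

section glevel

variable {G : Type*} [Group G] [Finite G] {z : G}
  {Q : Subgroup (Subgroup.centralizer ({z} : Set G))} [hQn : Q.Normal]
  {e : (Subgroup.centralizer ({z} : Set G)) ⧸ Q ≃* Spor.Co1}
  {ψ : leechLattice → Q ⧸ Subgroup.center Q}

/-- some conjugate `Q^a` (with `a z a⁻¹ ∈ Q`, `≠ z`) meets `Q` in a lift of a minimal vector -/
theorem MonPack.exists_type2_in_meet (hF : CoFacts) (hP : MonPack z Q e ψ)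
    (hwc : ∃ g : G, (∃ hq : g * z * g⁻¹ ∈ Subgroup.centralizer ({z} : Set G),
      (⟨g * z * g⁻¹, hq⟩ : Subgroup.centralizer ({z} : Set G)) ∈ Q) ∧ g * z * g⁻¹ ≠ z) :
    ∃ (a : G) (t0 : Subgroup.centralizer ({z} : Set G)) (v : leechLattice),
      a * z * a⁻¹ ∈ QG Q ∧ a * z * a⁻¹ ≠ z ∧ sqNorm (v : GolayPt → ℤ) = 32 ∧ Lf ψ v t0 ∧
      (t0 : G) ∈ (QG Q).map (MulAut.conj a).toMonoidHom := by
  obtain ⟨s0, hs0⟩ := exists_x ψ x0
  obtain ⟨hconj, hne⟩ := hP.imp_conj hF hwc sqNorm_x0 hs0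
  obtain ⟨a, ha⟩ := isConj_iff.1 hconj
  have hs0Q : (s0 : G) ∈ QG Q := ⟨s0, hs0.mem, rfl⟩
  have hz := hP.z_mem_conj hF.hCo1 (g := a) (by rw [ha]; exact hs0Q) (by rw [ha]; exact hne)
  have hXs : XS ((QG Q).map (MulAut.conj a).toMonoidHom) (s0 : G) := by
    have := hP.xsG.map (MulAut.conj a)
    rwa [MulAut.conj_apply, ha] at this
  have hNs : HNorm ((QG Q).map (MulAut.conj a).toMonoidHom) (s0 : G) := by
    have := (hnormG (Q := Q)).map (MulAut.conj a)
    rwa [MulAut.conj_apply, ha] at this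
  have hcs : Nat.card ((QG Q).map (MulAut.conj a).toMonoidHom) = 2 ^ 25 := by
    rw [Subgroup.card_map_of_injective (MulAut.conj a).injective, hP.cardG]
  set Qs : Subgroup G := (QG Q).map (MulAut.conj a).toMonoidHom with hQs
  have hc := card_inf_centralizer hXs hcs hne hP.xsG.zne hz
  have hle := inf_centralizer_le (z := z) hXs
  have hnorm := inf_centralizer_norm (z := z) hNs
  -- an element outside `Q`
  have hex : ∃ y ∈ (Qs ⊓ Subgroup.centralizer {z} : Subgroup G), y ∉ QG Q := by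
    by_contra hcon
    push Not at hcon
    have hRi := hXs.relIndex_centralizer hz hP.xsG.zne (Ne.symm hne)
    have := hXs.card_le_four hRi inf_le_left (D := Qs ⊓ Subgroup.centralizer {z})
      (fun d hd r hr => comm_of_mem_both hP.xsG hXs hne (hcon d hd) hd.1 (hcon r hr) hr.1)
    rw [hc] at this
    omega
  obtain ⟨y, hy, hyQ⟩ := hex
  obtain ⟨γ, hγ⟩ := exists_g e (⟨y, hy.2⟩ : Subgroup.centralizer ({z} : Set G))
  obtain ⟨c, hcc, hγc⟩ := hP.hψ.sign_of_normal hP.hX hs0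
    ((Qs ⊓ Subgroup.centralizer {z} : Subgroup G).subgroupOf (Subgroup.centralizer ({z} : Set G)))
    (by
      intro n hn
      have h2 := (hle hn).2
      rw [Subgroup.mem_centralizer_singleton_iff]
      apply Subtype.ext
      exact Subgroup.mem_centralizer_singleton_iff.1 h2)
    (IsPGroup.of_card hc).comap_subtype
    (by
      intro h hh n hn
      have hh' := Subgroup.mem_centralizer_singleton_iff.1 hh
      apply hnorm (h : G) ⟨h.2, ?_⟩ (n : G) hn
      show (h : G) ∈ Subgroup.centralizer {(s0 : G)}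
      rw [Subgroup.mem_centralizer_singleton_iff]
      exact congrArg Subtype.val hh')
    (y := ⟨y, hy.2⟩) hy hγ
  have hyQ' : (⟨y, hy.2⟩ : Subgroup.centralizer ({z} : Set G)) ∉ Q := fun h => hyQ ⟨_, h, rfl⟩
  have hγ1 : (QuotientGroup.mk γ : Spor.Co1) ≠ 1 := by
    intro h
    rw [hγ, MulEquiv.map_eq_one_iff, QuotientGroup.eq_one_iff] at h
    exact hyQ' h
  have h0 : c ≠ ∅ := by
    rintro rfl
    apply hγ1
    rw [hγc, monoEl_empty]; rfl
  have h1 : c ≠ Finset.univ := by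
    rintro rfl
    apply hγ1
    rw [hγc, monoEl_univ]
    exact (QuotientGroup.eq_one_iff _).2 negEl_mem_center
  obtain ⟨x, hx16, v, w, hv, hvx⟩ := exists_type2 hcc h0 h1
  rw [← hγc] at hvx
  obtain ⟨q, hq⟩ := exists_x ψ x
  have hqs : q * s0 = s0 * q := (hP.hψ.comm_iff hP.hX hF.hU hP.big hq hs0).2 hx16
  have hL : Lf ψ v (q * ((⟨y, hy.2⟩ : Subgroup.centralizer ({z} : Set G)) * q *
      (⟨y, hy.2⟩ : Subgroup.centralizer ({z} : Set G))⁻¹)) := by
    rw [hvx]
    exact hP.hψ.congr (hP.hψ.mul hq (hP.hψ.conj hγ hq)) w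
  refine ⟨a, _, v, by rw [ha]; exact hs0Q, by rw [ha]; exact hne, hv, hL, ?_⟩
  show (q : G) * (y * (q : G) * y⁻¹) ∈ Qs
  have e1 : (q : G) * (y * (q : G) * y⁻¹) = ((q : G) * y * (q : G)⁻¹) * ((q : G) * (q : G)) * y⁻¹ := by
    group
  rw [e1]
  have hq1 : (q : G) * y * (q : G)⁻¹ ∈ Qs := by
    apply hNs (q : G) _ y hy.1
    rw [Subgroup.mem_centralizer_singleton_iff]
    exact congrArg Subtype.val hqs
  have hq2 : (q : G) * (q : G) ∈ Qs := by
    rcases hP.hψ.sq_cases hP.hX hq.mem with h | h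
    · have : (q : G) * (q : G) = 1 := congrArg Subtype.val h
      rw [this]; exact one_mem _
    · have : (q : G) * (q : G) = z := congrArg Subtype.val h
      rw [this]; exact hz
  exact Qs.mul_mem (Qs.mul_mem hq1 hq2) (Qs.inv_mem hy.1)

end glevel

end Cfsg.Agent.Lib.Helper33
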