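import Cfsg.Agent.Lib.Helper33.MonBM5
import Cfsg.Agent.Lib.Helper33.MonBM3

set_option autoImplicit false

namespace Cfsg.Agent.Lib.Helper33

open Cfsg MulAction Cfsg.Agent.Lib.Helper9 Cfsg.Agent.Lib.Helper11

universe u

section glevel

variable {G : Type u} [Group G] [Finite G] {z : G}
  {Q : Subgroup (Subgroup.centralizer ({z} : Set G))} [hQn : Q.Normal]
  {e : (Subgroup.centralizer ({z} : Set G)) ⧸ Q ≃* Spor.Co1}
  {ψ : leechLattice → Q ⧸ Subgroup.center Q}

/-- every lift of a minimal vector lies in some conjugate `Q^a` with `a z a⁻¹ ∈ Q`, `≠ z` -/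
theorem MonPack.exists_conj_of_type2 (hF : CoFacts) (hP : MonPack z Q e ψ)
    (hwc : ∃ g : G, (∃ hq : g * z * g⁻¹ ∈ Subgroup.centralizer ({z} : Set G),
      (⟨g * z * g⁻¹, hq⟩ : Subgroup.centralizer ({z} : Set G)) ∈ Q) ∧ g * z * g⁻¹ ≠ z)
    {t : Subgroup.centralizer ({z} : Set G)} {u : leechLattice}
    (hu : sqNorm (u : GolayPt → ℤ) = 32) (hL : Lf ψ u t) :
    ∃ a : G, a * z * a⁻¹ ∈ QG Q ∧ a * z * a⁻¹ ≠ z ∧
      (t : G) ∈ (QG Q).map (MulAut.conj a).toMonoidHom := by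
  obtain ⟨a, t0, v, h1, h2, hv, hL0, ht0⟩ := hP.exists_type2_in_meet hF hwc
  obtain ⟨h, hh⟩ := hP.conj32 hF hv hu hL0 hL
  have hhz : (h : G) * z = z * (h : G) := Subgroup.mem_centralizer_singleton_iff.1 h.2
  have e1 : (h : G) * a * z * ((h : G) * a)⁻¹ = (h : G) * (a * z * a⁻¹) * (h : G)⁻¹ := by group
  refine ⟨(h : G) * a, ?_, ?_, ?_⟩
  · rw [e1]
    exact hnormG (h : G) h.2 _ h1
  · rw [e1]
    intro h3
    apply h2
    calc a * z * a⁻¹ = (h : G)⁻¹ * ((h : G) * (a * z * a⁻¹) * (h : G)⁻¹) * (h : G) := by group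
      _ = (h : G)⁻¹ * (z * (h : G)) := by rw [h3]; group
      _ = z := by rw [← hhz]; group
  · obtain ⟨q0, hq0, hq0t⟩ := ht0
    refine ⟨q0, hq0, ?_⟩
    have h4 : (t : G) = (h : G) * (t0 : G) * (h : G)⁻¹ := (congrArg Subtype.val hh).symm
    rw [h4, ← hq0t]
    show (h : G) * a * q0 * ((h : G) * a)⁻¹ = (h : G) * (a * q0 * a⁻¹) * (h : G)⁻¹
    group

/-- an element of the centraliser of `t` moving `z` inside `Q` -/
theorem MonPack.exists_move (hF : CoFacts) (hP : MonPack z Q e ψ)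
    (hwc : ∃ g : G, (∃ hq : g * z * g⁻¹ ∈ Subgroup.centralizer ({z} : Set G),
      (⟨g * z * g⁻¹, hq⟩ : Subgroup.centralizer ({z} : Set G)) ∈ Q) ∧ g * z * g⁻¹ ≠ z)
    {t : Subgroup.centralizer ({z} : Set G)} {u : leechLattice}
    (hu : sqNorm (u : GolayPt → ℤ) = 32) (hL : Lf ψ u t) :
    ∃ (y : G) (s : Subgroup.centralizer ({z} : Set G)), y * (t : G) = (t : G) * y ∧ s ∈ Q ∧
      s * t = t * s ∧ s ≠ 1 ∧ s ≠ t ∧ y * z * y⁻¹ = (s : G) * z := by
  obtain ⟨a, h1, h2, ht⟩ := hP.exists_conj_of_type2 hF hwc hu hL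
  obtain ⟨hsc, hsQ⟩ := mem_QG.1 h1
  have hz := hP.z_mem_conj hF.hCo1 (g := a) h1 h2
  have hXs : XS ((QG Q).map (MulAut.conj a).toMonoidHom) (a * z * a⁻¹) := by
    have := hP.xsG.map (MulAut.conj a)
    rwa [MulAut.conj_apply] at this
  set Qs : Subgroup G := (QG Q).map (MulAut.conj a).toMonoidHom with hQs
  set s : G := a * z * a⁻¹ with hs
  have hnc : ¬ IsConj z (t : G) := hP.no32 hF.hCo1 hF.hCo2 hL hu
  have hsconj : IsConj z s := isConj_iff.2 ⟨a, rfl⟩
  have hts : (t : G) ≠ s := fun h => hnc (by rw [h]; exact hsconj)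
  have ht1 : (t : G) ≠ 1 := by
    intro h
    have : t = 1 := Subtype.ext h
    exact not_double (Or.inl hu) ((hP.hψ.central_iff hP.hX hL).1 (Or.inl this))
  have htz : (t : G) ≠ z := fun h => hnc (by rw [h])
  have hidx := hXs.relIndex_centralizer ht ht1 hts
  have hex : ∃ y ∈ (Qs ⊓ Subgroup.centralizer {(t : G)} : Subgroup G), z * y ≠ y * z := by
    by_contra hcon
    push Not at hcon
    have := hXs.mem_of_centralizes hidx (c := (t : G)) (d := z) ht hz
      (fun r hr => (Subgroup.mem_centralizer_singleton_iff.1 hr.2).symm) hcon ht1 hts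
    rcases this with h | h | h | h
    · exact hP.xsG.zne h
    · exact h2 h.symm
    · exact htz h.symm
    · -- `t = s z`
      obtain ⟨v, hv, hLv⟩ := hP.conj_imp hF hsQ hsconj h2
      have h3 : (t : G) = s * z := by
        have hsz : s * z = z * s := Subgroup.mem_centralizer_singleton_iff.1 hsc
        calc (t : G) = (t : G) * (s * s) := by rw [hXs.zsq, mul_one]
          _ = ((t : G) * s) * s := by group
          _ = z * s := by rw [← h]
          _ = s * z := hsz.symm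
      have h4 : t = (⟨s, hsc⟩ : Subgroup.centralizer ({z} : Set G)) * zC z := Subtype.ext h3
      have h5 := (hP.imp_conj hF hwc hv (Lf.mul_z hP.hX hLv)).1
      rw [← h4] at h5
      exact hnc h5
  obtain ⟨y, hy, hyz⟩ := hex
  have hcomm := hXs.comm' hz hy.1 hyz
  refine ⟨y, ⟨s, hsc⟩, Subgroup.mem_centralizer_singleton_iff.1 hy.2, hsQ, ?_, ?_, ?_, ?_⟩
  · apply Subtype.ext
    exact hXs.zcen _ ht
  · intro h
    exact hXs.zne (congrArg Subtype.val h)
  · intro h
    exact hts (congrArg Subtype.val h).symm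
  · show y * z * y⁻¹ = s * z
    have : y * z = s * (z * y) := by
      calc y * z = (s * s) * (y * z) := by rw [hXs.zsq, one_mul]
        _ = s * (s * (y * z)) := by group
        _ = s * (z * y) := by rw [← hcomm]
    rw [this]; group

end glevel

/-- the centraliser of a non-central involution of `Q`, modulo the involution, is of Baby Monster type -/
theorem mon5412 (hF : CoFacts) {G : Type u} [Group G] [Finite G] (z : G)
    (Q : Subgroup (Subgroup.centralizer ({z} : Set G))) [Q.Normal] (hM : IsOfMonsterType z Q)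
    (t : G)
    (htQ : ∃ htc : t ∈ Subgroup.centralizer ({z} : Set G),
      (⟨t, htc⟩ : Subgroup.centralizer ({z} : Set G)) ∈ Q)
    (ht2 : orderOf t = 2) (ht : ¬ IsConj z t)
    [hn : ((Subgroup.zpowers t).subgroupOf (Subgroup.centralizer ({t} : Set G))).Normal] :
    IsOfBabyMonsterType (↥(Subgroup.centralizer ({t} : Set G)) ⧸
      (Subgroup.zpowers t).subgroupOf (Subgroup.centralizer ({t} : Set G))) := by
  obtain ⟨hS, e, ψ, hψ⟩ := hM
  have hP0 := monPack_of hF.hCo1 hS hψ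
  obtain ⟨htc, htQ⟩ := htQ
  obtain ⟨v, hv, hLv⟩ := hP0.nonconj_imp hF hS.2.2.2.2 htQ ht2 ht
  obtain ⟨γ, hγ⟩ := hF.t32 v Spor.leechU hv sqNorm_leechU
  have hP : MonPack z Q (e.trans (MulAut.conj (QuotientGroup.mk γ : Spor.Co1)))
      (fun x => ψ (γ⁻¹ • x)) := ⟨hP0.hψ.twist γ, hP0.hX, hP0.hcard⟩
  have hL : Lf (fun x => ψ (γ⁻¹ • x)) Spor.leechU
      (⟨t, htc⟩ : Subgroup.centralizer ({z} : Set G)) := by
    obtain ⟨hx, h1⟩ := hLv
    refine ⟨hx, ?_⟩
    show ψ (γ⁻¹ • Spor.leechU) = _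
    rw [← hγ, inv_smul_smul]; exact h1
  obtain ⟨y, s, hyt, hsQ, hst, hs1, hst', hyz⟩ := hP.exists_move hF hS.2.2.2.2 sqNorm_leechU hL
  have hr : s * zC z ∈ Subgroup.centralizer
      ({(⟨t, htc⟩ : Subgroup.centralizer ({z} : Set G))} :
        Set (Subgroup.centralizer ({z} : Set G))) := by
    rw [Subgroup.mem_centralizer_singleton_iff]
    calc s * zC z * ⟨t, htc⟩ = s * (zC z * ⟨t, htc⟩) := by group
      _ = s * (⟨t, htc⟩ * zC z) := by rw [zC_comm]
      _ = (s * ⟨t, htc⟩) * zC z := by group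
      _ = ⟨t, htc⟩ * s * zC z := by rw [hst]
      _ = ⟨t, htc⟩ * (s * zC z) := by group
  have hwc : ∃ (g : ↥(Subgroup.centralizer ({t} : Set G)) ⧸
      (Subgroup.zpowers t).subgroupOf (Subgroup.centralizer ({t} : Set G)))
      (r : ↥(Subgroup.centralizer ({(⟨t, htc⟩ : Subgroup.centralizer ({z} : Set G))} :
        Set (Subgroup.centralizer ({z} : Set G))))),
      ρA hP htc hL r = 1 ∧ g * fA htc (ζA htc) * g⁻¹ = fA htc r ∧ r ≠ ζA htc ∧
        r ≠ τA htc * ζA htc := by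
    refine ⟨QuotientGroup.mk ⟨y, Subgroup.mem_centralizer_singleton_iff.2 hyt⟩, ⟨s * zC z, hr⟩,
      ?_, ?_, ?_, ?_⟩
    · rw [ρA_eq_one_iff]
      exact Q.mul_mem hsQ hP.hX.zmem
    · have : (⟨y, Subgroup.mem_centralizer_singleton_iff.2 hyt⟩ :
          ↥(Subgroup.centralizer ({t} : Set G))) * toHt htc (ζA htc) *
          (⟨y, Subgroup.mem_centralizer_singleton_iff.2 hyt⟩ :
          ↥(Subgroup.centralizer ({t} : Set G)))⁻¹ = toHt htc ⟨s * zC z, hr⟩ := Subtype.ext hyz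
      exact congrArg QuotientGroup.mk this
    · intro h
      have h1 : s * zC z = zC z := congrArg Subtype.val h
      exact hs1 (mul_eq_right.1 h1)
    · intro h
      have h1 : s * zC z = ⟨t, htc⟩ * zC z := congrArg Subtype.val h
      exact hst' (mul_right_cancel h1)
  exact (bmData_of hF hP htc hL hwc).isBM

end Cfsg.Agent.Lib.Helper33
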