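import Cfsg.Prelude.Def_MonsterType
import Cfsg.Agent.Lib.Helper33.MonAbs

set_option autoImplicit false

namespace Cfsg.Agent.Lib.Helper33

open Cfsg
open scoped commutatorElement

/-- the statement of uniqueness of the invariant quadratic form -/
def QFUnique : Prop :=
  ∀ (Q : ↥leechLattice → ZMod 2), (∀ v w : ↥leechLattice, Q (v + (w + w)) = Q v) →
    (∀ u v w : ↥leechLattice, Q (u + v + w) + Q u + Q v + Q w = Q (u + v) + Q (u + w) + Q (v + w)) →
    (∀ (g : ↥Co0) (v : ↥leechLattice), Q (g • v) = Q v) → (∃ v : ↥leechLattice, Q v ≠ 0) →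
    ∀ v : ↥leechLattice, Q v = ((sqNorm (v : GolayPt → ℤ) / 16 : ℤ) : ZMod 2)

/-- extraspecial + a central involution gives `XS` -/
theorem xs_of_extraspecial {C : Type*} [Group C] {Q : Subgroup C} {ζ : C}
    (hE : IsExtraspecial 2 Q) (hζ : ζ ∈ Q) (hζ1 : ζ ≠ 1) (hζc : ∀ y ∈ Q, ζ * y = y * ζ) :
    XS Q ζ := by
  obtain ⟨⟨_, _, hcomm⟩, hcard⟩ := hE
  have hζcen : (⟨ζ, hζ⟩ : Q) ∈ Subgroup.center Q := by
    rw [Subgroup.mem_center_iff]
    rintro ⟨y, hy⟩
    apply Subtype.ext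
    exact (hζc y hy).symm
  have hcases : ∀ c : Q, c ∈ Subgroup.center Q → c = 1 ∨ c = ⟨ζ, hζ⟩ := by
    intro c hc
    obtain ⟨y, _, hy⟩ := (Nat.card_eq_two_iff' (1 : Subgroup.center Q)).1 hcard
    by_cases h1 : c = 1
    · left; exact h1
    · right
      have e1 := hy ⟨c, hc⟩ (fun h => h1 (congrArg Subtype.val h))
      have e2 := hy ⟨⟨ζ, hζ⟩, hζcen⟩ (fun h => hζ1 (congrArg (fun t : Subgroup.center Q => ((t : Q) : C)) h))
      have := e1.trans e2.symm
      exact congrArg Subtype.val this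
  refine ⟨hζ, ?_, hζ1, hζc, ?_, ?_⟩
  · have : (⟨⟨ζ, hζ⟩, hζcen⟩ : Subgroup.center Q) ^ 2 = 1 := by
      rw [← hcard]; exact pow_card_eq_one'
    have h2 := congrArg (fun t : Subgroup.center Q => ((t : Q) : C)) this
    simpa [pow_two] using h2
  · intro x hx y hy
    have hm : ⁅(⟨x, hx⟩ : Q), ⟨y, hy⟩⁆ ∈ Subgroup.center Q := by
      rw [← hcomm]
      exact Subgroup.commutator_mem_commutator (Subgroup.mem_top _) (Subgroup.mem_top _)
    rcases hcases _ hm with h1 | h1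
    · left
      have h2 := congrArg (fun t : Q => (t : C)) h1
      simp only [commutatorElement_def] at h2
      have h3 : x * y * x⁻¹ * y⁻¹ = 1 := h2
      calc x * y = (x * y * x⁻¹ * y⁻¹) * (y * x) := by group
        _ = y * x := by rw [h3, one_mul]
    · right
      have h2 := congrArg (fun t : Q => (t : C)) h1
      simp only [commutatorElement_def] at h2
      have h3 : x * y * x⁻¹ * y⁻¹ = ζ := h2
      calc x * y = (x * y * x⁻¹ * y⁻¹) * (y * x) := by group
        _ = ζ * (y * x) := by rw [h3]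
  · intro c hc hcy
    have : (⟨c, hc⟩ : Q) ∈ Subgroup.center Q := by
      rw [Subgroup.mem_center_iff]
      rintro ⟨y, hy⟩
      apply Subtype.ext
      exact (hcy y hy).symm
    rcases hcases _ this with h1 | h1
    · left; exact congrArg Subtype.val h1
    · right; exact congrArg Subtype.val h1

/-- the centre of a simple group of non-prime order is trivial -/
theorem center_eq_bot_of_simple {K : Type*} [Group K] [Finite K] (hK : IsSimpleGroup K)
    (hp : ¬ (Nat.card K).Prime) : Subgroup.center K = ⊥ := by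
  rcases hK.eq_bot_or_eq_top_of_normal (Subgroup.center K) inferInstance with h | h
  · exact h
  · exfalso
    apply hp
    let _ : CommGroup K := Group.commGroupOfCenterEqTop h
    exact IsSimpleGroup.prime_card

section clevel

variable {C : Type*} [Group C] {Q : Subgroup C} [hQn : Q.Normal]

/-- the module isomorphism, for a general group `C` -/
structure LIso (e : C ⧸ Q ≃* Spor.Co1) (ψ : leechLattice → Q ⧸ Subgroup.center Q) : Prop where
  add : ∀ v w : leechLattice, ψ (v + w) = ψ v * ψ w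
  surj : Function.Surjective ψ
  ker : ∀ v : leechLattice, ψ v = 1 ↔ ∃ w : leechLattice, v = w + w
  eqv : ∀ (h : C) (g : Co0), (QuotientGroup.mk g : Spor.Co1) = e (QuotientGroup.mk h) →
    ∀ (v : leechLattice) (q : Q), ψ v = QuotientGroup.mk q →
      ψ (g • v) = QuotientGroup.mk ⟨h * q * h⁻¹, hQn.conj_mem (q : C) q.2 h⟩

/-- `x` is a lift of `ψ v` -/
def Lf (ψ : leechLattice → Q ⧸ Subgroup.center Q) (v : leechLattice) (x : C) : Prop :=
  ∃ hx : x ∈ Q, ψ v = QuotientGroup.mk ⟨x, hx⟩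

variable {e : C ⧸ Q ≃* Spor.Co1} {ψ : leechLattice → Q ⧸ Subgroup.center Q}

theorem Lf.mem {v : leechLattice} {x : C} (h : Lf ψ v x) : x ∈ Q := h.1

theorem LIso.exists_v (hψ : LIso e ψ) {x : C} (hx : x ∈ Q) : ∃ v, Lf ψ v x := by
  obtain ⟨v, hv⟩ := hψ.surj (QuotientGroup.mk ⟨x, hx⟩)
  exact ⟨v, hx, hv⟩

theorem exists_x (ψ : leechLattice → Q ⧸ Subgroup.center Q) (v : leechLattice) : ∃ x, Lf ψ v x := by
  obtain ⟨⟨x, hx⟩, h⟩ := QuotientGroup.mk_surjective (ψ v)
  exact ⟨x, hx, h.symm⟩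

theorem LIso.mul (hψ : LIso e ψ) {v w : leechLattice} {x y : C} (h1 : Lf ψ v x) (h2 : Lf ψ w y) :
    Lf ψ (v + w) (x * y) := by
  obtain ⟨hx, h1⟩ := h1
  obtain ⟨hy, h2⟩ := h2
  refine ⟨Q.mul_mem hx hy, ?_⟩
  rw [hψ.add, h1, h2]
  rfl

theorem LIso.congr (hψ : LIso e ψ) {v : leechLattice} {x : C} (h1 : Lf ψ v x) (w : leechLattice) :
    Lf ψ (v + (w + w)) x := by
  obtain ⟨hx, h1⟩ := h1
  refine ⟨hx, ?_⟩
  rw [hψ.add, (hψ.ker (w + w)).2 ⟨w, rfl⟩, mul_one, h1]

theorem LIso.conj (hψ : LIso e ψ) {h : C} {g : Co0}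
    (hg : (QuotientGroup.mk g : Spor.Co1) = e (QuotientGroup.mk h)) {v : leechLattice} {x : C}
    (h1 : Lf ψ v x) : Lf ψ (g • v) (h * x * h⁻¹) := by
  obtain ⟨hx, h1⟩ := h1
  exact ⟨hQn.conj_mem x hx h, hψ.eqv h g hg v ⟨x, hx⟩ h1⟩

theorem exists_h (e : C ⧸ Q ≃* Spor.Co1) (g : Co0) :
    ∃ h : C, (QuotientGroup.mk g : Spor.Co1) = e (QuotientGroup.mk h) := by
  obtain ⟨h, hh⟩ := QuotientGroup.mk_surjective (e.symm (QuotientGroup.mk g))
  exact ⟨h, by rw [hh, MulEquiv.apply_symm_apply]⟩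

theorem exists_g (e : C ⧸ Q ≃* Spor.Co1) (h : C) :
    ∃ g : Co0, (QuotientGroup.mk g : Spor.Co1) = e (QuotientGroup.mk h) :=
  QuotientGroup.mk_surjective (e (QuotientGroup.mk h))

variable {ζ : C}

theorem mem_center_iff_xs (hX : XS Q ζ) (c : Q) :
    c ∈ Subgroup.center Q ↔ ((c : C) = 1 ∨ (c : C) = ζ) := by
  constructor
  · intro hc
    apply hX.cen c c.2
    intro y hy
    have := (Subgroup.mem_center_iff.1 hc) ⟨y, hy⟩
    exact (congrArg Subtype.val this).symm
  · rintro (h | h)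
    · have : c = 1 := Subtype.ext h
      rw [this]; exact Subgroup.one_mem _
    · rw [Subgroup.mem_center_iff]
      rintro ⟨y, hy⟩
      apply Subtype.ext
      show y * (c : C) = (c : C) * y
      rw [h]; exact (hX.zcen y hy).symm

theorem Lf.unique (hX : XS Q ζ) {v : leechLattice} {x y : C} (h1 : Lf ψ v x) (h2 : Lf ψ v y) :
    y = x ∨ y = x * ζ := by
  obtain ⟨hx, h1⟩ := h1
  obtain ⟨hy, h2⟩ := h2
  rw [h1] at h2
  have := QuotientGroup.eq.1 h2
  rw [mem_center_iff_xs hX] at this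
  rcases this with h | h
  · left
    have h' : x⁻¹ * y = 1 := h
    calc y = x * (x⁻¹ * y) := by group
      _ = x := by rw [h', mul_one]
  · right
    have h' : x⁻¹ * y = ζ := h
    calc y = x * (x⁻¹ * y) := by group
      _ = x * ζ := by rw [h']

theorem Lf.mul_z (hX : XS Q ζ) {v : leechLattice} {x : C} (h1 : Lf ψ v x) : Lf ψ v (x * ζ) := by
  obtain ⟨hx, h1⟩ := h1
  refine ⟨Q.mul_mem hx hX.zmem, ?_⟩
  rw [h1]
  apply QuotientGroup.eq.2
  rw [mem_center_iff_xs hX]
  right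
  show x⁻¹ * (x * ζ) = ζ
  group

theorem LIso.central_iff (hψ : LIso e ψ) (hX : XS Q ζ) {v : leechLattice} {x : C} (h1 : Lf ψ v x) :
    (x = 1 ∨ x = ζ) ↔ ∃ w : leechLattice, v = w + w := by
  obtain ⟨hx, h1⟩ := h1
  rw [← hψ.ker, h1, QuotientGroup.eq_one_iff, mem_center_iff_xs hX]

theorem LIso.sq_cases (hψ : LIso e ψ) (hX : XS Q ζ) {x : C} (hx : x ∈ Q) :
    x * x = 1 ∨ x * x = ζ := by
  obtain ⟨v, hv⟩ := hψ.exists_v hx
  exact (hψ.central_iff hX (hψ.mul hv hv)).2 ⟨v, rfl⟩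

/-! ### the square map as a quadratic form -/

/-- `0 ↦ 1`, `1 ↦ ζ` -/
noncomputable def fz (ζ : C) (a : ZMod 2) : C := if a = 0 then 1 else ζ

theorem fz_add (hX : XS Q ζ) (a b : ZMod 2) : fz ζ (a + b) = fz ζ a * fz ζ b := by
  have := hX.zsq
  have h10 : (1 : ZMod 2) ≠ 0 := by decide
  have h11 : (1 : ZMod 2) + 1 = 0 := by decide
  have hc : ∀ a : ZMod 2, a = 0 ∨ a = 1 := by decide
  rcases hc a with rfl | rfl <;> rcases hc b with rfl | rfl <;> simp [fz, this, h10, h11]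

theorem fz_inj (hX : XS Q ζ) {a b : ZMod 2} (h : fz ζ a = fz ζ b) : a = b := by
  have := hX.zne
  have h10 : (1 : ZMod 2) ≠ 0 := by decide
  have hc : ∀ a : ZMod 2, a = 0 ∨ a = 1 := by decide
  revert h
  rcases hc a with rfl | rfl <;> rcases hc b with rfl | rfl <;>
    simp [fz, this, Ne.symm this, h10]

theorem fz_comm (hX : XS Q ζ) (a : ZMod 2) {y : C} (hy : y ∈ Q) : fz ζ a * y = y * fz ζ a := by
  unfold fz
  split_ifs
  · simp
  · exact hX.zcen y hy

open Classical in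
/-- the square, as an element of `ZMod 2` -/
noncomputable def sqv (x : C) : ZMod 2 := if x * x = 1 then 0 else 1

open Classical in
/-- the commutator, as an element of `ZMod 2` -/
noncomputable def cmv (x y : C) : ZMod 2 := if x * y = y * x then 0 else 1

omit hQn in
theorem sqv_congr {a b : C} (h : a * a = 1 ↔ b * b = 1) : sqv a = sqv b := by
  unfold sqv
  by_cases h1 : a * a = 1
  · rw [if_pos h1, if_pos (h.1 h1)]
  · rw [if_neg h1, if_neg (fun h2 => h1 (h.2 h2))]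

theorem LIso.sqv_spec (hψ : LIso e ψ) (hX : XS Q ζ) {x : C} (hx : x ∈ Q) :
    x * x = fz ζ (sqv x) := by
  unfold sqv fz
  rcases hψ.sq_cases hX hx with h | h
  · simp [h]
  · have : ¬ (x * x = 1) := by rw [h]; exact hX.zne
    simp [this, h]

theorem cmv_spec (hX : XS Q ζ) {x y : C} (hx : x ∈ Q) (hy : y ∈ Q) :
    x * y = fz ζ (cmv x y) * (y * x) := by
  unfold cmv fz
  by_cases h : x * y = y * x
  · simp [h]
  · simp [h, hX.comm' hx hy h]

theorem LIso.sqv_mul (hψ : LIso e ψ) (hX : XS Q ζ) {x y : C} (hx : x ∈ Q) (hy : y ∈ Q) :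
    sqv (x * y) = cmv y x + sqv x + sqv y := by
  apply fz_inj hX
  rw [← hψ.sqv_spec hX (Q.mul_mem hx hy), fz_add hX, fz_add hX, ← hψ.sqv_spec hX hx,
    ← hψ.sqv_spec hX hy]
  calc x * y * (x * y) = x * (y * x) * y := by group
    _ = x * (fz ζ (cmv y x) * (x * y)) * y := by rw [← cmv_spec hX hy hx]
    _ = (x * fz ζ (cmv y x)) * (x * y * y) := by group
    _ = (fz ζ (cmv y x) * x) * (x * y * y) := by rw [fz_comm hX _ hx]
    _ = fz ζ (cmv y x) * (x * x) * (y * y) := by group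

theorem cmv_mul (hX : XS Q ζ) {w x y : C} (hw : w ∈ Q) (hx : x ∈ Q) (hy : y ∈ Q) :
    cmv w (x * y) = cmv w x + cmv w y := by
  apply fz_inj hX
  have h1 := cmv_spec hX hw (Q.mul_mem hx hy)
  have h2 : w * (x * y) = fz ζ (cmv w x + cmv w y) * (x * y * w) := by
    rw [fz_add hX]
    calc w * (x * y) = (w * x) * y := by group
      _ = fz ζ (cmv w x) * (x * w) * y := by rw [← cmv_spec hX hw hx]
      _ = fz ζ (cmv w x) * (x * (w * y)) := by group
      _ = fz ζ (cmv w x) * (x * (fz ζ (cmv w y) * (y * w))) := by rw [← cmv_spec hX hw hy]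
      _ = fz ζ (cmv w x) * ((x * fz ζ (cmv w y)) * (y * w)) := by group
      _ = fz ζ (cmv w x) * ((fz ζ (cmv w y) * x) * (y * w)) := by rw [fz_comm hX _ hx]
      _ = fz ζ (cmv w x) * fz ζ (cmv w y) * (x * y * w) := by group
  rw [h1] at h2
  exact mul_right_cancel h2

theorem sqv_mul_z (hX : XS Q ζ) {x : C} (hx : x ∈ Q) : sqv (x * ζ) = sqv x := by
  have : x * ζ * (x * ζ) = x * x := by
    calc x * ζ * (x * ζ) = x * (ζ * x) * ζ := by group
      _ = x * (x * ζ) * ζ := by rw [hX.zcen x hx]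
      _ = x * x * (ζ * ζ) := by group
      _ = x * x := by rw [hX.zsq, mul_one]
  unfold sqv
  rw [this]

/-- the quadratic form on the lattice -/
noncomputable def qf (ψ : leechLattice → Q ⧸ Subgroup.center Q) (v : leechLattice) : ZMod 2 :=
  sqv (Classical.choose (exists_x ψ v))

theorem qf_eq (hX : XS Q ζ) {v : leechLattice} {x : C} (h : Lf ψ v x) : qf ψ v = sqv x := by
  have h0 := Classical.choose_spec (exists_x ψ v)
  unfold qf
  rcases Lf.unique hX h h0 with h1 | h1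
  · rw [h1]
  · rw [h1, sqv_mul_z hX h.mem]

theorem LIso.qf_formula (hψ : LIso e ψ) (hX : XS Q ζ) (hU : QFUnique)
    (hbig : 2 < Nat.card Q) (v : leechLattice) :
    qf ψ v = ((sqNorm (v : GolayPt → ℤ) / 16 : ℤ) : ZMod 2) := by
  apply hU
  · intro v w
    obtain ⟨x, hx⟩ := exists_x ψ v
    rw [qf_eq hX hx, qf_eq hX (hψ.congr hx w)]
  · intro u v w
    obtain ⟨x, hx⟩ := exists_x ψ u
    obtain ⟨y, hy⟩ := exists_x ψ v
    obtain ⟨t, ht⟩ := exists_x ψ w
    rw [qf_eq hX hx, qf_eq hX hy, qf_eq hX ht, qf_eq hX (hψ.mul hx hy), qf_eq hX (hψ.mul hx ht),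
      qf_eq hX (hψ.mul hy ht), qf_eq hX (hψ.mul (hψ.mul hx hy) ht),
      hψ.sqv_mul hX (Q.mul_mem hx.mem hy.mem) ht.mem, cmv_mul hX ht.mem hx.mem hy.mem,
      hψ.sqv_mul hX hx.mem ht.mem, hψ.sqv_mul hX hy.mem ht.mem]
    ring
  · intro g v
    obtain ⟨x, hx⟩ := exists_x ψ v
    obtain ⟨h, hh⟩ := exists_h e g
    rw [qf_eq hX hx, qf_eq hX (hψ.conj hh hx)]
    have : h * x * h⁻¹ * (h * x * h⁻¹) = 1 ↔ x * x = 1 := by
      have e1 : h * x * h⁻¹ * (h * x * h⁻¹) = h * (x * x) * h⁻¹ := by group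
      rw [e1]
      constructor
      · intro h2
        calc x * x = h⁻¹ * (h * (x * x) * h⁻¹) * h := by group
          _ = 1 := by rw [h2]; group
      · intro h2; rw [h2]; group
    exact sqv_congr this
  · by_contra hcon
    push Not at hcon
    -- all squares trivial, so `Q` is abelian
    have hsq : ∀ x ∈ Q, x * x = 1 := by
      intro x hx
      obtain ⟨v, hv⟩ := hψ.exists_v hx
      have := hcon v
      rw [qf_eq hX hv] at this
      unfold sqv at this
      by_contra h2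
      simp [h2] at this
    have hab : ∀ x ∈ Q, ∀ y ∈ Q, x * y = y * x := by
      intro x hx y hy
      have h1 := hsq x hx
      have h2 := hsq y hy
      have h3 := hsq _ (Q.mul_mem hx hy)
      have hx' : x⁻¹ = x := inv_eq_of_mul_eq_one_left h1
      have hy' : y⁻¹ = y := inv_eq_of_mul_eq_one_left h2
      calc x * y = (x * y)⁻¹ := (inv_eq_of_mul_eq_one_left h3).symm
        _ = y⁻¹ * x⁻¹ := mul_inv_rev _ _
        _ = y * x := by rw [hx', hy']
    have hsub : (Q : Set C) ⊆ {1, ζ} := by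
      intro c hc
      rcases hX.cen c hc (fun y hy => hab c hc y hy) with h | h
      · left; exact h
      · right; exact h
    have h1 : Nat.card Q ≤ ({1, ζ} : Set C).ncard := by
      rw [← _root_.Nat.card_coe_set_eq]
      exact Nat.card_mono (Set.toFinite _) hsub
    have h2 : ({1, ζ} : Set C).ncard ≤ 2 := Set.ncard_insert_le _ _ |>.trans (by simp)
    omega

end clevel

end Cfsg.Agent.Lib.Helper33
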