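import Cfsg.Agent.Lib.Helper33.MonBase
import Cfsg.Agent.S5553
import Cfsg.Agent.S1570
import Cfsg.Agent.S0391
import Cfsg.Agent.S0392

set_option autoImplicit false

namespace Cfsg.Agent.Lib.Helper33

open Cfsg

/-- a non-central element is conjugate in `Q` to its product with `z` -/
theorem XS.conj_z {G : Type*} [Group G] {Q : Subgroup G} {z : G} (h : XS Q z) {x : G} (hx : x ∈ Q)
    (h1 : x ≠ 1) (hz : x ≠ z) : ∃ y ∈ Q, y * x * y⁻¹ = x * z := by
  have hnc : ∃ a ∈ Q, x * a ≠ a * x := by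
    by_contra hcon
    push Not at hcon
    rcases h.cen x hx hcon with h2 | h2
    · exact h1 h2
    · exact hz h2
  obtain ⟨a, ha, hxa⟩ := hnc
  have h2 := h.comm' hx ha hxa
  refine ⟨a, ha, ?_⟩
  have h3 : z * (a * x) * a⁻¹ = x := by rw [← h2]; group
  calc a * x * a⁻¹ = (z * z) * (a * x * a⁻¹) := by rw [h.zsq, one_mul]
    _ = z * (z * (a * x) * a⁻¹) := by group
    _ = z * x := by rw [h3]
    _ = x * z := h.zcen x hx

/-- short representatives modulo twice the lattice -/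
theorem short_rep (v : leechLattice) : ∃ y w : leechLattice, y = v + (w + w) ∧
    (y = 0 ∨ sqNorm (y : GolayPt → ℤ) = 32 ∨ sqNorm (y : GolayPt → ℤ) = 48 ∨
      sqNorm (y : GolayPt → ℤ) = 64) := by
  obtain ⟨y, hy, hn, t, ht, hyt⟩ := Cfsg.Agent.S1570.result (v : GolayPt → ℤ) v.2
  refine ⟨⟨y, hy⟩, -⟨t, ht⟩, ?_, ?_⟩
  · apply Subtype.ext
    show y = (v : GolayPt → ℤ) + (-t + -t)
    have : y = (v : GolayPt → ℤ) - 2 • t := by rw [← hyt]; abel
    rw [this, two_smul]; abel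
  · by_cases h0 : y = 0
    · left; exact Subtype.ext h0
    · right
      have h1 := Cfsg.Agent.S0391.result y hy h0
      obtain ⟨k, hk⟩ := Cfsg.Agent.S0392.result y hy
      show sqNorm y = 32 ∨ sqNorm y = 48 ∨ sqNorm y = 64
      omega

/-- vectors of norm `32`, `48`, `64` are not doubles -/
theorem not_double {v : leechLattice} (hv : sqNorm (v : GolayPt → ℤ) = 32 ∨
    sqNorm (v : GolayPt → ℤ) = 48 ∨ sqNorm (v : GolayPt → ℤ) = 64) :
    ¬ ∃ w : leechLattice, v = w + w := by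
  rintro ⟨w, rfl⟩
  have h4 : sqNorm ((w + w : leechLattice) : GolayPt → ℤ) = 4 * sqNorm (w : GolayPt → ℤ) := by
    simp only [sqNorm, AddSubgroup.coe_add, Pi.add_apply, Finset.mul_sum]
    apply Finset.sum_congr rfl
    intro i _
    ring
  rw [h4] at hv
  by_cases h0 : (w : GolayPt → ℤ) = 0
  · rw [h0] at hv
    simp [sqNorm] at hv
  · have h1 := Cfsg.Agent.S0391.result _ w.2 h0
    omega

section clevel

variable {C : Type*} [Group C] {Q : Subgroup C} [hQn : Q.Normal]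
variable {e : C ⧸ Q ≃* Spor.Co1} {ψ : leechLattice → Q ⧸ Subgroup.center Q} {ζ : C}

theorem LIso.sq_iff (hψ : LIso e ψ) (hX : XS Q ζ) (hU : QFUnique)
    (hbig : 2 < Nat.card Q) {v : leechLattice} {x : C} (h : Lf ψ v x) :
    x * x = 1 ↔ (32 : ℤ) ∣ sqNorm (v : GolayPt → ℤ) := by
  have h1 := hψ.qf_formula hX hU hbig v
  rw [qf_eq hX h] at h1
  obtain ⟨k, hk⟩ := Cfsg.Agent.S0392.result _ v.2
  have h2 : sqNorm (v : GolayPt → ℤ) / 16 = k := by omega
  rw [h2] at h1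
  have h3 : ((k : ℤ) : ZMod 2) = 0 ↔ ((2 : ℕ) : ℤ) ∣ k := ZMod.intCast_zmod_eq_zero_iff_dvd k 2
  rw [← h1] at h3
  have h4 : sqv x = 0 ↔ x * x = 1 := by
    unfold sqv
    by_cases h5 : x * x = 1
    · simp [h5]
    · simp [h5]
  rw [← h4, h3, hk]
  constructor
  · rintro ⟨m, hm⟩; exact ⟨m, by push_cast at hm; rw [hm]; ring⟩
  · rintro ⟨m, hm⟩; exact ⟨m, by push_cast; omega⟩

/-- short lift -/
theorem LIso.short_lift (hψ : LIso e ψ) (hX : XS Q ζ) {x : C} (hx : x ∈ Q) (h1 : x ≠ 1)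
    (hz : x ≠ ζ) : ∃ v : leechLattice, Lf ψ v x ∧ (sqNorm (v : GolayPt → ℤ) = 32 ∨
      sqNorm (v : GolayPt → ℤ) = 48 ∨ sqNorm (v : GolayPt → ℤ) = 64) := by
  obtain ⟨v, hv⟩ := hψ.exists_v hx
  obtain ⟨y, w, hy, hc⟩ := short_rep v
  have hy' : Lf ψ y x := by rw [hy]; exact hψ.congr hv w
  refine ⟨y, hy', ?_⟩
  rcases hc with h0 | hc
  · exfalso
    have := (hψ.central_iff hX hy').2 ⟨0, by rw [h0]; simp⟩
    rcases this with h | h
    · exact h1 h
    · exact hz h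
  · exact hc

/-- transfer of conjugacy -/
theorem LIso.transfer (hψ : LIso e ψ) (hX : XS Q ζ) {v v' : leechLattice} {s t : C}
    (hs : Lf ψ v s) (ht : Lf ψ v' t) (hv' : ¬ ∃ w : leechLattice, v' = w + w)
    (g : Co0) (w : leechLattice) (hg : v' = g • v + (w + w)) : ∃ h : C, h * s * h⁻¹ = t := by
  obtain ⟨h, hh⟩ := exists_h e g
  have h1 : Lf ψ v' (h * s * h⁻¹) := by rw [hg]; exact hψ.congr (hψ.conj hh hs) w
  rcases Lf.unique hX h1 ht with h2 | h2
  · exact ⟨h, h2.symm⟩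
  · have hnc : ¬ (h * s * h⁻¹ = 1 ∨ h * s * h⁻¹ = ζ) := fun hc => hv' ((hψ.central_iff hX h1).1 hc)
    push Not at hnc
    obtain ⟨y, _, hy⟩ := hX.conj_z h1.mem hnc.1 hnc.2
    refine ⟨y * h, ?_⟩
    rw [h2, ← hy]
    group

/-- `Q` contains an elementary abelian subgroup of order `2 ^ 13` -/
theorem LIso.exists_elemAb (hψ : LIso e ψ) (hX : XS Q ζ) (hU : QFUnique)
    (hcard : Nat.card Q = 2 ^ 25) :
    ∃ E : Subgroup Q, IsElementaryAbelian 2 E ∧ Nat.card E = 2 ^ 13 := by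
  obtain ⟨A, hA, h2A, hidx, h32⟩ := Cfsg.Agent.S5553.result
  have hbig : 2 < Nat.card Q := by rw [hcard]; norm_num
  let Ψ : Multiplicative leechLattice →* Q ⧸ Subgroup.center Q :=
    MonoidHom.mk' (fun v => ψ (Multiplicative.toAdd v)) (fun a b => hψ.add _ _)
  have hΨs : Function.Surjective Ψ := fun y => by
    obtain ⟨v, hv⟩ := hψ.surj y
    exact ⟨Multiplicative.ofAdd v, hv⟩
  let A' : Subgroup (Multiplicative leechLattice) :=
    AddSubgroup.toSubgroup (A.addSubgroupOf leechLattice)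
  have hA'idx : A'.index = 2 ^ 12 := by
    rw [AddSubgroup.index_toSubgroup]; exact hidx
  have hker : Ψ.ker ≤ A' := by
    intro v hv
    obtain ⟨w, hw⟩ := (hψ.ker (Multiplicative.toAdd v)).1 hv
    show ((Multiplicative.toAdd v : leechLattice) : GolayPt → ℤ) ∈ A
    rw [hw]
    have := h2A _ w.2
    rw [two_smul] at this
    exact this
  let E : Subgroup Q := (A'.map Ψ).comap (QuotientGroup.mk' (Subgroup.center Q))
  have hEidx : E.index = 2 ^ 12 := by
    rw [Subgroup.index_comap_of_surjective _ (QuotientGroup.mk'_surjective _),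
      Subgroup.index_map_eq _ hΨs hker, hA'idx]
  have hsq : ∀ a ∈ E, a * a = 1 := by
    rintro ⟨a, ha⟩ ⟨v, hv, hva⟩
    apply Subtype.ext
    show a * a = 1
    have hL : Lf ψ (Multiplicative.toAdd v) a := ⟨ha, hva⟩
    rw [hψ.sq_iff hX hU hbig hL]
    exact h32 _ hv
  refine ⟨E, ⟨⟨⟨?_⟩⟩, ?_⟩, ?_⟩
  · rintro ⟨x, hx⟩ ⟨y, hy⟩
    apply Subtype.ext
    show x * y = y * x
    have h1 := hsq x hx
    have h2 := hsq y hy
    have h3 := hsq _ (E.mul_mem hx hy)
    have hx' : x⁻¹ = x := inv_eq_of_mul_eq_one_left h1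
    have hy' : y⁻¹ = y := inv_eq_of_mul_eq_one_left h2
    calc x * y = (x * y)⁻¹ := (inv_eq_of_mul_eq_one_left h3).symm
      _ = y⁻¹ * x⁻¹ := mul_inv_rev _ _
      _ = y * x := by rw [hx', hy']
  · intro a ha
    rw [pow_two]; exact hsq a ha
  · have := E.card_mul_index
    rw [hEidx, hcard] at this
    omega

end clevel

end Cfsg.Agent.Lib.Helper33
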