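import Cfsg.Agent.Lib.Helper33.SimpCo3
import Cfsg.Agent.Lib.Helper33.E275
import Cfsg.Agent.Lib.Helper33.E2025
import Cfsg.Agent.Lib.Helper33.E7128
import Cfsg.Agent.Lib.Helper33.E15400
import Cfsg.Agent.Lib.Helper33.E22275

set_option autoImplicit false

namespace Cfsg.Agent.Lib.Helper33

open Cfsg MulAction

def c2Vals : Finset ℤ := {32, -16, 16, -8, 8, 0}
def c2C (τ : ℤ) : ℕ :=
  if τ = 32 then 1 else if τ = -16 then 275 else if τ = 16 then 2025 else if τ = -8 then 7128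
  else if τ = 8 then 15400 else if τ = 0 then 22275 else 0

theorem c2_cls : ∀ τ ∈ c2Vals, τ ≠ 32 →
    OrbCls ↥Co0 (fun p : ↥leechLattice × ↥leechLattice =>
      {y | y ∈ C1 (-8) p.1 ∧ ldot p.2 y = τ}) (lv bA0, lv bW0) (c2C τ) := by
  intro τ hτ h
  simp only [c2Vals, Finset.mem_insert, Finset.mem_singleton] at hτ
  rcases hτ with rfl | rfl | rfl | rfl | rfl | rfl
  · exact absurd rfl h
  · exact cls2_conv e275_cls
  · exact cls2_conv e2025_cls
  · exact cls2_conv e7128_cls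
  · exact cls2_conv e15400_cls
  · exact cls2_conv e22275_cls

theorem stab_swap (a b : ↥leechLattice) : stabilizer ↥Co0 (a, b) = stabilizer ↥Co0 (b, a) := by
  ext g
  simp only [mem_stabilizer_iff, Prod.smul_mk, Prod.mk.injEq]
  exact and_comm

section
variable (hCo0 : Nat.card ↥Co0 = 8315553613086720000)
include hCo0

theorem simple_co2 : IsSimpleGroup ↥(stabilizer ↥Co0 (lv bA0)) := by
  have hfin := finite_co0 hCo0
  have hs : IsSimpleGroup ↥(stabilizer ↥(stabilizer ↥Co0 (lv bA0)) (lv bW0)) :=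
    (stabStabEquiv _ (lv bA0) rfl (lv bW0)).isSimpleGroup_congr.2 (simple_mcl hCo0)
  obtain ⟨g, hg⟩ := to_la0 bY0_mem.1
  have hconj : ∃ k : ↥Co0, k • (lv bA0, g • lv bU0) = (lv bY0, lv bU0) :=
    ⟨g⁻¹, by rw [Prod.smul_mk, inv_smul_smul, ← hg, inv_smul_smul]⟩
  have hs2 : IsSimpleGroup ↥(stabilizer ↥(stabilizer ↥Co0 (lv bA0)) (g • lv bU0)) := by
    refine (stabStabEquiv _ (lv bA0) rfl (g • lv bU0)).isSimpleGroup_congr.2 ?_
    refine simple_stab_conj hconj ?_
    rw [stab_swap, stab_eq_hs]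
    exact simple_hs hCo0
  have hcs2 : Nat.card ↥(stabilizer ↥(stabilizer ↥Co0 (lv bA0)) (g • lv bU0)) = 44352000 := by
    rw [Nat.card_congr (stabStabEquiv _ (lv bA0) rfl (g • lv bU0)).toEquiv, card_stab_conj hconj, stab_swap,
      stab_eq_hs, card_hs hCo0]
  have hidx : (stabilizer ↥(stabilizer ↥Co0 (lv bA0)) (g • lv bU0)).index = 953856 := by
    have := (stabilizer ↥(stabilizer ↥Co0 (lv bA0)) (g • lv bU0)).card_mul_index
    rw [hcs2, card_co2 hCo0] at this
    omega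
  have hprim : ∀ N : Subgroup ↥(stabilizer ↥Co0 (lv bA0)), N.Normal →
      orbit N (lv bW0) = {lv bW0} ∨ orbit N (lv bW0) = orbit ↥(stabilizer ↥Co0 (lv bA0)) (lv bW0) := by
    intro N hN
    exact prim_concl (C1 (-8)) (lv bA0) (lv bW0) 47104 clsm8' (C1_sub _) bW0_mem c2Vals c2C
      (by decide) c2_cls (by decide) (by decide) ⟨1, one_smul _ _⟩ bW0_mem _ rfl N
  have horb : (orbit ↥(stabilizer ↥Co0 (lv bA0)) (lv bW0)).ncard = 47104 := by
    rw [clsm8'.orbit_eq ⟨1, one_smul _ _⟩ bW0_mem, clsm8'.count]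
  refine simple_of_primitive (lv bW0) hs hprim ?_ ?_
  · exact move_of_class (C1 (-8)) (lv bA0) (lv bW0) 47104 clsm8' bW0_mem (-16) 275 (by norm_num)
      (cls2_conv e275_cls) ⟨1, one_smul _ _⟩ bW0_mem _ rfl
  · intro N hN _ hcard
    rw [horb] at hcard
    rcases simple_sub_dichotomy N _ hs2 with h1 | ⟨_, h1⟩
    · have := Subgroup.card_le_of_le h1
      rw [hcs2, hcard] at this
      omega
    · rw [hcard, hidx] at h1
      exact absurd h1 (by decide)

theorem isCo2_stab {v : ↥leechLattice} (hv : sqNorm (v : GolayPt → ℤ) = 32) :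
    IsCo2 ↥(stabilizer ↥Co0 v) := by
  have hb := to_la0 (x := v) hv
  exact ⟨simple_stab_conj hb (simple_co2 hCo0), by rw [card_stab_conj hb, card_co2 hCo0]⟩

end

end Cfsg.Agent.Lib.Helper33
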