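import Cfsg.Agent.Lib.Helper33.MonFinal
import Cfsg.Agent.S5552
import Cfsg.Agent.S0399
import Cfsg.Agent.S0402
import Cfsg.Agent.S0400
import Cfsg.Agent.S5593

set_option autoImplicit false

namespace Cfsg.Agent.Lib.Helper33

open Cfsg

/-- all the facts about the Conway groups used for groups of Monster type -/
theorem coFacts : CoFacts where
  hU := fun Q h1 h2 h3 h4 v => Cfsg.Agent.S5552.result Q h1 h2 h3 h4 v
  hCo1 := Cfsg.Agent.S0399.result
  hCo2 := fun v hv => Cfsg.Agent.S0402.result v hv
  t32 := fun v w hv hw => Cfsg.Agent.S0400.result v w hv hw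
  t64 := fun v w hv hw => Cfsg.Agent.S5593.result v w hv hw

end Cfsg.Agent.Lib.Helper33
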