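import Cfsg.Agent.Lib.Helper33.MonBase3

set_option autoImplicit false

namespace Cfsg.Agent.Lib.Helper33

open Cfsg MulAction

/-- transport of `XS` along an injective homomorphism -/
theorem XS.map_inj {C G : Type*} [Group C] [Group G] {Q : Subgroup C} {ζ : C} (h : XS Q ζ)
    (f : C →* G) (hf : Function.Injective f) : XS (Q.map f) (f ζ) where
  zmem := ⟨ζ, h.zmem, rfl⟩
  zsq := by rw [← map_mul, h.zsq, map_one]
  zne := fun hc => h.zne (hf (by rw [hc, map_one]))
  zcen := by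
    rintro _ ⟨y, hy, rfl⟩
    rw [← map_mul, ← map_mul, h.zcen y hy]
  comm := by
    rintro _ ⟨x, hx, rfl⟩ _ ⟨y, hy, rfl⟩
    rcases h.comm x hx y hy with h1 | h1
    · left; rw [← map_mul, ← map_mul, h1]
    · right; rw [← map_mul, ← map_mul, ← map_mul, h1]
  cen := by
    rintro _ ⟨c, hc, rfl⟩ hy
    have : ∀ y ∈ Q, c * y = y * c := by
      intro y hyQ
      have := hy (f y) ⟨y, hyQ, rfl⟩
      apply hf
      rw [map_mul, map_mul]; exact this
    rcases h.cen c hc this with h1 | h1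
    · left; rw [h1, map_one]
    · right; rw [h1]

/-- 2-subgroups of the centraliser of `z` meet `Q` in index at most `2 ^ 21` -/
def H21 {G : Type*} [Group G] (Q : Subgroup G) (z : G) : Prop :=
  ∀ P : Subgroup G, P ≤ Subgroup.centralizer {z} → IsPGroup 2 P →
      Nat.card P ≤ 2 ^ 21 * Nat.card (P ⊓ Q : Subgroup G)

/-- the centraliser of `z` normalises `Q` -/
def HNorm {G : Type*} [Group G] (Q : Subgroup G) (z : G) : Prop :=
  ∀ h ∈ Subgroup.centralizer {z}, ∀ q ∈ Q, h * q * h⁻¹ ∈ Q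

theorem H21.map {G : Type*} [Group G] {Q : Subgroup G} {z : G} (h : H21 Q z) (f : G ≃* G) :
    H21 (Q.map f.toMonoidHom) (f z) := by
  intro P hP hp
  have h1 : P.map f.symm.toMonoidHom ≤ Subgroup.centralizer {z} := by
    rintro _ ⟨p, hp', rfl⟩
    have := Subgroup.mem_centralizer_singleton_iff.1 (hP hp')
    rw [Subgroup.mem_centralizer_singleton_iff]
    show f.symm p * z = z * f.symm p
    apply f.injective
    rw [map_mul, map_mul, MulEquiv.apply_symm_apply]
    exact this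
  have h2 := h _ h1 (hp.map _)
  have hinj : Function.Injective f.symm.toMonoidHom := f.symm.injective
  rw [Subgroup.card_map_of_injective hinj] at h2
  have h3 : (P.map f.symm.toMonoidHom ⊓ Q : Subgroup G) =
      (P ⊓ Q.map f.toMonoidHom).map f.symm.toMonoidHom := by
    rw [Subgroup.map_inf _ _ _ hinj, Subgroup.map_map]
    congr 1
    ext x
    simp
  rw [h3, Subgroup.card_map_of_injective hinj] at h2
  exact h2

theorem HNorm.map {G : Type*} [Group G] {Q : Subgroup G} {z : G} (h : HNorm Q z) (f : G ≃* G) :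
    HNorm (Q.map f.toMonoidHom) (f z) := by
  rintro k hk _ ⟨q, hq, rfl⟩
  have hk' := Subgroup.mem_centralizer_singleton_iff.1 hk
  have h1 : f.symm k ∈ Subgroup.centralizer {z} := by
    rw [Subgroup.mem_centralizer_singleton_iff]
    apply f.injective
    rw [map_mul, map_mul, MulEquiv.apply_symm_apply]
    exact hk'
  refine ⟨_, h _ h1 q hq, ?_⟩
  show f (f.symm k * q * (f.symm k)⁻¹) = k * f q * k⁻¹
  simp

section glevel

variable {G : Type*} [Group G] {z : G}
  {Q : Subgroup (Subgroup.centralizer ({z} : Set G))} [hQn : Q.Normal]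
  {e : (Subgroup.centralizer ({z} : Set G)) ⧸ Q ≃* Spor.Co1}
  {ψ : leechLattice → Q ⧸ Subgroup.center Q}

/-- `z` as an element of its centraliser -/
def zC (z : G) : Subgroup.centralizer ({z} : Set G) :=
  ⟨z, Subgroup.mem_centralizer_singleton_iff.2 rfl⟩

/-- `Q` as a subgroup of `G` -/
def QG (Q : Subgroup (Subgroup.centralizer ({z} : Set G))) : Subgroup G :=
  Q.map (Subgroup.centralizer ({z} : Set G)).subtype

omit hQn in
theorem mem_QG {x : G} : x ∈ QG Q ↔ ∃ hx : x ∈ Subgroup.centralizer ({z} : Set G), (⟨x, hx⟩ :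
    Subgroup.centralizer ({z} : Set G)) ∈ Q := by
  constructor
  · rintro ⟨⟨y, hy⟩, hyQ, rfl⟩
    exact ⟨hy, hyQ⟩
  · rintro ⟨hx, hxQ⟩
    exact ⟨⟨x, hx⟩, hxQ, rfl⟩

omit hQn in
theorem QG_le : QG Q ≤ Subgroup.centralizer ({z} : Set G) := by
  intro x hx
  exact (mem_QG.1 hx).1

theorem zC_comm (h : Subgroup.centralizer ({z} : Set G)) : zC z * h = h * zC z := by
  apply Subtype.ext
  exact (Subgroup.mem_centralizer_singleton_iff.1 h.2).symm

/-- `z` lies in `Q` -/
theorem zC_mem (hCo1 : IsCo1 Spor.Co1) (e : (Subgroup.centralizer ({z} : Set G)) ⧸ Q ≃* Spor.Co1) :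
    zC z ∈ Q := by
  have hfin : Finite Spor.Co1 := Nat.finite_of_card_ne_zero (by rw [hCo1.2]; norm_num)
  have hcen := center_eq_bot_of_simple hCo1.1 (by rw [hCo1.2]; norm_num)
  have h1 : e (QuotientGroup.mk (zC z)) ∈ Subgroup.center Spor.Co1 := by
    rw [Subgroup.mem_center_iff]
    intro k
    obtain ⟨k', rfl⟩ := e.surjective k
    obtain ⟨h, rfl⟩ := QuotientGroup.mk_surjective k'
    rw [← map_mul, ← map_mul, ← QuotientGroup.mk_mul, ← QuotientGroup.mk_mul, zC_comm]
  rw [hcen, Subgroup.mem_bot, MulEquiv.map_eq_one_iff, QuotientGroup.eq_one_iff] at h1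
  exact h1

theorem liso_of (hψ : IsLeechModTwoIso Q e ψ) : LIso e ψ :=
  ⟨hψ.1, hψ.2.1, hψ.2.2.1, hψ.2.2.2⟩

/-- the package of basic facts -/
structure MonPack (z : G) (Q : Subgroup (Subgroup.centralizer ({z} : Set G))) [Q.Normal]
    (e : (Subgroup.centralizer ({z} : Set G)) ⧸ Q ≃* Spor.Co1)
    (ψ : leechLattice → Q ⧸ Subgroup.center Q) : Prop where
  hψ : LIso e ψ
  hX : XS Q (zC z)
  hcard : Nat.card Q = 2 ^ 25

theorem monPack_of (hCo1 : IsCo1 Spor.Co1) (hS : IsExtraspecialCentralizerSetting z Q 12)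
    (hψ : IsLeechModTwoIso Q e ψ) : MonPack z Q e ψ := by
  obtain ⟨hz2, _, hE, hcard, _⟩ := hS
  refine ⟨liso_of hψ, ?_, by rw [hcard]⟩
  apply xs_of_extraspecial hE (zC_mem hCo1 e)
  · intro h
    have : z = 1 := congrArg Subtype.val h
    rw [this, orderOf_one] at hz2
    omega
  · intro y _
    exact zC_comm y

variable (hP : MonPack z Q e ψ)
include hP

theorem MonPack.xsG : XS (QG Q) z :=
  hP.hX.map_inj (Subgroup.centralizer ({z} : Set G)).subtype Subtype.coe_injective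

theorem MonPack.cardG : Nat.card (QG Q) = 2 ^ 25 := by
  rw [← hP.hcard]
  exact Subgroup.card_map_of_injective Subtype.coe_injective

omit hP in
theorem hnormG : HNorm (QG Q) z := by
  rintro h hh _ ⟨q, hq, rfl⟩
  exact ⟨⟨h, hh⟩ * q * ⟨h, hh⟩⁻¹, hQn.conj_mem q hq _, rfl⟩

omit hP in
theorem h21G [Finite G] (hCo1 : IsCo1 Spor.Co1)
    (e : (Subgroup.centralizer ({z} : Set G)) ⧸ Q ≃* Spor.Co1) : H21 (QG Q) z := by
  intro P hPle hp
  have h1 := card_le_of_pgroup hCo1.2 e (P.subgroupOf (Subgroup.centralizer ({z} : Set G)))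
    hp.comap_subtype
  rw [Nat.card_congr (Subgroup.subgroupOfEquivOfLe hPle).toEquiv] at h1
  have h2 : (P ⊓ QG Q : Subgroup G) =
      (P.subgroupOf (Subgroup.centralizer ({z} : Set G)) ⊓ Q).map
        (Subgroup.centralizer ({z} : Set G)).subtype := by
    rw [Subgroup.map_inf _ _ _ Subtype.coe_injective, Subgroup.map_subgroupOf_eq_of_le hPle]
    rfl
  rw [h2, Subgroup.card_map_of_injective Subtype.coe_injective]
  exact h1

/-- normal 2-subgroups of `C(z) ⊓ C(s)` lie in `Q`, for `s` a lift of a minimal vector -/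
theorem MonPack.hCo2G
    (hCo2 : ∀ v : leechLattice, sqNorm (v : GolayPt → ℤ) = 32 → IsCo2 ↥(stabilizer ↥Co0 v))
    {v : leechLattice} {x : Subgroup.centralizer ({z} : Set G)} (hx : Lf ψ v x)
    (hv : sqNorm (v : GolayPt → ℤ) = 32) (N : Subgroup G)
    (hN : N ≤ Subgroup.centralizer {z} ⊓ Subgroup.centralizer {(x : G)}) (hp : IsPGroup 2 N)
    (hnorm : ∀ h ∈ Subgroup.centralizer {z} ⊓ Subgroup.centralizer {(x : G)}, ∀ n ∈ N,
      h * n * h⁻¹ ∈ N) : N ≤ QG Q := by
  have h1 := hP.hψ.le_of_normal_pgroup hP.hX hCo2 hx hv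
    (N.subgroupOf (Subgroup.centralizer ({z} : Set G))) ?_ hp.comap_subtype ?_
  · intro n hn
    have hnz := (hN hn).1
    exact ⟨⟨n, hnz⟩, h1 (show (⟨n, hnz⟩ : Subgroup.centralizer ({z} : Set G)) ∈
      N.subgroupOf (Subgroup.centralizer ({z} : Set G)) from hn), rfl⟩
  · intro n hn
    have h2 := (hN hn).2
    rw [Subgroup.mem_centralizer_singleton_iff]
    apply Subtype.ext
    exact Subgroup.mem_centralizer_singleton_iff.1 h2
  · intro h hh n hn
    have hh' := Subgroup.mem_centralizer_singleton_iff.1 hh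
    apply hnorm (h : G) ⟨h.2, ?_⟩ (n : G) hn
    show (h : G) ∈ Subgroup.centralizer {(x : G)}
    rw [Subgroup.mem_centralizer_singleton_iff]
    exact congrArg Subtype.val hh'

/-- a conjugate `s = g z g⁻¹` of `z` inside `Q`, different from `z`: then `z ∈ g Q g⁻¹` -/
theorem MonPack.z_mem_conj [Finite G] (hCo1 : IsCo1 Spor.Co1) {g : G}
    (hs : g * z * g⁻¹ ∈ QG Q) (hsz : g * z * g⁻¹ ≠ z) :
    z ∈ (QG Q).map (MulAut.conj g).toMonoidHom :=
  keyK hP.xsG (hP.xsG.map (MulAut.conj g)) hP.cardG hs hsz (hnormG.map (MulAut.conj g))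
    ((h21G hCo1 e).map (MulAut.conj g))

/-- no lift of a minimal vector is conjugate to `z` -/
theorem MonPack.no32 [Finite G] (hCo1 : IsCo1 Spor.Co1)
    (hCo2 : ∀ v : leechLattice, sqNorm (v : GolayPt → ℤ) = 32 → IsCo2 ↥(stabilizer ↥Co0 v))
    {v : leechLattice} {x : Subgroup.centralizer ({z} : Set G)} (hx : Lf ψ v x)
    (hv : sqNorm (v : GolayPt → ℤ) = 32) : ¬ IsConj z (x : G) := by
  intro hc
  obtain ⟨g, hg⟩ := isConj_iff.1 hc
  have hxz : (x : G) ≠ z := by
    intro h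
    have : x = zC z := Subtype.ext h
    exact not_double (Or.inl hv) ((hP.hψ.central_iff hP.hX hx).1 (Or.inr this))
  have hxQ : (x : G) ∈ QG Q := ⟨x, hx.mem, rfl⟩
  have hz := hP.z_mem_conj hCo1 (g := g) (by rw [hg]; exact hxQ) (by rw [hg]; exact hxz)
  have hXs : XS ((QG Q).map (MulAut.conj g).toMonoidHom) (x : G) := by
    have := hP.xsG.map (MulAut.conj g)
    rwa [MulAut.conj_apply, hg] at this
  have hNs : HNorm ((QG Q).map (MulAut.conj g).toMonoidHom) (x : G) := by
    have := (hnormG (Q := Q)).map (MulAut.conj g)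
    rwa [MulAut.conj_apply, hg] at this
  have hcs : Nat.card ((QG Q).map (MulAut.conj g).toMonoidHom) = 2 ^ 25 := by
    rw [Subgroup.card_map_of_injective (MulAut.conj g).injective, hP.cardG]
  exact keyK2 hP.xsG hXs hcs hxz hz hNs (hP.hCo2G hCo2 hx hv)

end glevel

end Cfsg.Agent.Lib.Helper33
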