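import Cfsg.Agent.Lib.Helper33.Orbit

set_option autoImplicit false

namespace Cfsg.Agent.Lib.Helper33

namespace RankData

variable {G X ι : Type*} [Group G] [MulAction G X] {Ω : Set X} {rel : X → X → ι} {x₀ : X} {sz : ι → ℕ}

theorem self_eq (D : RankData G Ω rel x₀ sz) {x : X} (hx : x ∈ Ω) : rel x x = rel x₀ x₀ := by
  obtain ⟨a, ha⟩ := D.trans x hx
  rw [← D.rel_smul a, ha]

theorem diag' (D : RankData G Ω rel x₀ sz) (h1 : sz (rel x₀ x₀) = 1) {x y : X} (hx : x ∈ Ω) (hy : y ∈ Ω)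
    (h : rel x y = rel x₀ x₀) : y = x := by
  obtain ⟨a, ha⟩ := D.trans x hx
  have : a • y = x₀ := D.diag_of_sz h1 _ (D.smul_mem a y hy) (by rw [← h, ← D.rel_smul a x y, ha])
  rw [← ha] at this
  exact MulAction.injective a this

theorem exists_rel (D : RankData G Ω rel x₀ sz) {x : X} (hx : x ∈ Ω) {i : ι} (hi : sz i ≠ 0) :
    ∃ y ∈ Ω, rel x y = i := by
  have h := D.count' hx i
  have hne : {y | y ∈ Ω ∧ rel x y = i}.Nonempty := by
    by_contra hc
    rw [Set.not_nonempty_iff_eq_empty] at hc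
    rw [hc, Set.ncard_empty] at h
    exact hi h.symm
  obtain ⟨y, hy, hr⟩ := hne
  exact ⟨y, hy, hr⟩

end RankData

end Cfsg.Agent.Lib.Helper33
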