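import Cfsg.Agent.Lib.Helper33.SimpMcL
import Cfsg.Agent.Lib.Helper33.C352
import Cfsg.Agent.Lib.Helper33.C1100
import Cfsg.Agent.Lib.Helper33.C4125
import Cfsg.Agent.Lib.Helper33.C5600

set_option autoImplicit false

namespace Cfsg.Agent.Lib.Helper33

open Cfsg MulAction

def c3Vals : Finset ℤ := {32, -8, 16, 0, 8}
def c3C (τ : ℤ) : ℕ :=
  if τ = 32 then 1 else if τ = -8 then 352 else if τ = 16 then 1100 else if τ = 0 then 4125
  else if τ = 8 then 5600 else 0

theorem c3_cls : ∀ τ ∈ c3Vals, τ ≠ 32 →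
    OrbCls ↥Co0 (fun p : ↥leechLattice × ↥leechLattice =>
      {y | y ∈ C1 (-16) p.1 ∧ ldot p.2 y = τ}) (lv bU0, lv bY0) (c3C τ) := by
  intro τ hτ h
  simp only [c3Vals, Finset.mem_insert, Finset.mem_singleton] at hτ
  rcases hτ with rfl | rfl | rfl | rfl | rfl
  · exact absurd rfl h
  · exact cls2_conv c352_cls
  · exact cls2_conv c1100_cls
  · exact cls2_conv c4125_cls
  · exact cls2_conv c5600_cls

section
variable (hCo0 : Nat.card ↥Co0 = 8315553613086720000)
include hCo0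

theorem simple_co3 : IsSimpleGroup ↥(stabilizer ↥Co0 (lv bU0)) := by
  have hfin := finite_co0 hCo0
  have hs : IsSimpleGroup ↥(stabilizer ↥(stabilizer ↥Co0 (lv bU0)) (lv bY0)) := by
    refine (stabStabEquiv _ (lv bU0) rfl (lv bY0)).isSimpleGroup_congr.2 ?_
    rw [stab_eq_hs]
    exact simple_hs hCo0
  have hs2 : IsSimpleGroup ↥(stabilizer ↥(stabilizer ↥Co0 (lv bU0)) (lv bA0)) := by
    refine (stabStabEquiv _ (lv bU0) rfl (lv bA0)).isSimpleGroup_congr.2 ?_
    rw [stab_eq_mcl]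
    exact simple_mcl hCo0
  have hcs2 : Nat.card ↥(stabilizer ↥(stabilizer ↥Co0 (lv bU0)) (lv bA0)) = 898128000 := by
    rw [Nat.card_congr (stabStabEquiv _ (lv bU0) rfl (lv bA0)).toEquiv, stab_eq_mcl, card_mcl hCo0]
  have hidx : (stabilizer ↥(stabilizer ↥Co0 (lv bU0)) (lv bA0)).index = 552 := by
    rw [index_stabilizer, c552_cls.orbit_eq ⟨1, one_smul _ _⟩ bA0_mem, c552_cls.count]
  have hprim : ∀ N : Subgroup ↥(stabilizer ↥Co0 (lv bU0)), N.Normal →
      orbit N (lv bY0) = {lv bY0} ∨ orbit N (lv bY0) = orbit ↥(stabilizer ↥Co0 (lv bU0)) (lv bY0) := by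
    intro N hN
    exact prim_concl (C1 (-16)) (lv bU0) (lv bY0) 11178 c11178_cls (C1_sub _) bY0_mem c3Vals c3C
      (by decide) c3_cls (by decide) (by decide) ⟨1, one_smul _ _⟩ bY0_mem _ rfl N
  have horb : (orbit ↥(stabilizer ↥Co0 (lv bU0)) (lv bY0)).ncard = 11178 := by
    rw [c11178_cls.orbit_eq ⟨1, one_smul _ _⟩ bY0_mem, c11178_cls.count]
  refine simple_of_primitive (lv bY0) hs hprim ?_ ?_
  · exact move_of_class (C1 (-16)) (lv bU0) (lv bY0) 11178 c11178_cls bY0_mem (-8) 352 (by norm_num)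
      (cls2_conv c352_cls) ⟨1, one_smul _ _⟩ bY0_mem _ rfl
  · intro N hN _ hcard
    rw [horb] at hcard
    rcases simple_sub_dichotomy N _ hs2 with h1 | ⟨_, h1⟩
    · have := Subgroup.card_le_of_le h1
      rw [hcs2, hcard] at this
      omega
    · rw [hcard, hidx] at h1
      exact absurd h1 (by decide)

theorem isCo3_stab {v : ↥leechLattice} (hv : sqNorm (v : GolayPt → ℤ) = 48) :
    IsCo3 ↥(stabilizer ↥Co0 v) := by
  have hb := to_lu0 (u := v) (by rw [ldot_self]; exact hv)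
  exact ⟨simple_stab_conj hb (simple_co3 hCo0), by rw [card_stab_conj hb, card_co3 hCo0]⟩

end

end Cfsg.Agent.Lib.Helper33
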