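import Cfsg.Agent.Lib.Helper33.CoM22
import Cfsg.Agent.Lib.Helper33.C22
import Cfsg.Agent.Lib.Helper33.C77
import Cfsg.Prelude.Def_Sporadic

set_option autoImplicit false

namespace Cfsg.Agent.Lib.Helper33

open Cfsg MulAction

def hsVals : Finset ℤ := {32, 8, 16}
def hsC (τ : ℤ) : ℕ := if τ = 32 then 1 else if τ = 8 then 22 else if τ = 16 then 77 else 0

theorem hs_cls : ∀ τ ∈ hsVals, τ ≠ 32 →
    OrbCls ↥Co0 (fun p : (↥leechLattice × ↥leechLattice) × ↥leechLattice =>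
      {y | y ∈ C2 24 (-24) p.1 ∧ ldot p.2 y = τ}) ((lv bU0, lv bWH), lv bXH) (hsC τ) := by
  intro τ hτ h
  simp only [hsVals, Finset.mem_insert, Finset.mem_singleton] at hτ
  rcases hτ with rfl | rfl | rfl
  · exact absurd rfl h
  · exact cls3_conv c22_cls
  · exact cls3_conv c77_cls

section
variable (hCo0 : Nat.card ↥Co0 = 8315553613086720000)
include hCo0

theorem simple_hs : IsSimpleGroup ↥(stabilizer ↥Co0 (lv bU0, lv bWH)) := by
  have hfin := finite_co0 hCo0
  have hs : IsSimpleGroup ↥(stabilizer ↥(stabilizer ↥Co0 (lv bU0, lv bWH)) (lv bXH)) :=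
    (stabStabEquiv _ (lv bU0, lv bWH) rfl (lv bXH)).isSimpleGroup_congr.2 (simple_m22a hCo0)
  have hcs : Nat.card ↥(stabilizer ↥(stabilizer ↥Co0 (lv bU0, lv bWH)) (lv bXH)) = 443520 := by
    rw [Nat.card_congr (stabStabEquiv _ (lv bU0, lv bWH) rfl (lv bXH)).toEquiv, card_m22a hCo0]
  have hprim : ∀ N : Subgroup ↥(stabilizer ↥Co0 (lv bU0, lv bWH)), N.Normal →
      orbit N (lv bXH) = {lv bXH} ∨ orbit N (lv bXH) = orbit ↥(stabilizer ↥Co0 (lv bU0, lv bWH)) (lv bXH) := by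
    intro N hN
    exact prim_concl (C2 24 (-24)) (lv bU0, lv bWH) (lv bXH) 100 c100_cls (C2_sub _ _) bXH_mem hsVals hsC
      (by decide) hs_cls (by decide) (by decide) ⟨1, one_smul _ _⟩ bXH_mem _ rfl N
  have horb : (orbit ↥(stabilizer ↥Co0 (lv bU0, lv bWH)) (lv bXH)).ncard = 100 := by
    rw [c100_cls.orbit_eq ⟨1, one_smul _ _⟩ bXH_mem, c100_cls.count]
  refine simple_of_primitive (lv bXH) hs hprim ?_ ?_
  · exact move_of_class (C2 24 (-24)) (lv bU0, lv bWH) (lv bXH) 100 c100_cls bXH_mem 8 22 (by norm_num)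
      (cls3_conv c22_cls) ⟨1, one_smul _ _⟩ bXH_mem _ rfl
  · intro N hN _ hcard
    rw [horb] at hcard
    obtain ⟨P, hPn, hP⟩ := normal_25_of_100 N hcard
    rcases simple_sub_dichotomy P _ hs with h1 | ⟨h1, _⟩
    · have := Subgroup.card_le_of_le h1
      rw [hcs, hP] at this
      omega
    · have h3 := card_eq_orbit_mul P (lv bXH)
      rw [h1, Subgroup.card_bot, one_mul, hP] at h3
      rcases hprim P hPn with h2 | h2
      · rw [h2, Set.ncard_singleton] at h3
        omega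
      · rw [h2, horb] at h3
        omega

theorem isHS_stab {v w : ↥leechLattice} (hv : sqNorm (v : GolayPt → ℤ) = 48) (hw : sqNorm (w : GolayPt → ℤ) = 48)
    (hvw : dotInt (v : GolayPt → ℤ) (w : GolayPt → ℤ) = -32) :
    IsHS ↥(stabilizer ↥Co0 v ⊓ stabilizer ↥Co0 w) := by
  rw [stab_prod]
  have hb := to_hs (v := v) (w := w) (by rw [ldot_self]; exact hv) (by rw [ldot_self]; exact hw) hvw
  exact ⟨simple_stab_conj hb (simple_hs hCo0), by rw [card_stab_conj hb, card_hs hCo0]⟩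

end

end Cfsg.Agent.Lib.Helper33
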