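import Cfsg.Agent.Lib.Helper33.SimpHS
import Cfsg.Agent.Lib.Helper33.C330
import Cfsg.Agent.Lib.Helper33.C462
import Cfsg.Agent.Lib.Helper33.C1232
import Cfsg.Agent.Lib.Helper33.C112
import Cfsg.Agent.Lib.Helper33.C162

set_option autoImplicit false

namespace Cfsg.Agent.Lib.Helper33

open Cfsg MulAction

def mcVals : Finset ℤ := {32, 0, 16, 8}
def mcC (τ : ℤ) : ℕ := if τ = 32 then 1 else if τ = 0 then 330 else if τ = 16 then 462 else if τ = 8 then 1232 else 0

theorem mc_cls : ∀ τ ∈ mcVals, τ ≠ 32 →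
    OrbCls ↥Co0 (fun p : (↥leechLattice × ↥leechLattice) × ↥leechLattice =>
      {y | y ∈ C2 0 16 p.1 ∧ ldot p.2 y = τ}) ((lv bA0, lv bW0), lv bX2025) (mcC τ) := by
  intro τ hτ h
  simp only [mcVals, Finset.mem_insert, Finset.mem_singleton] at hτ
  rcases hτ with rfl | rfl | rfl | rfl
  · exact absurd rfl h
  · exact cls3_conv c330_cls
  · exact cls3_conv c462_cls
  · exact cls3_conv c1232_cls

def mdVals : Finset ℤ := {32, 8, 16}
def mdC (τ : ℤ) : ℕ := if τ = 32 then 1 else if τ = 8 then 112 else if τ = 16 then 162 else 0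

theorem md_cls : ∀ τ ∈ mdVals, τ ≠ 32 →
    OrbCls ↥Co0 (fun p : (↥leechLattice × ↥leechLattice) × ↥leechLattice =>
      {y | y ∈ C2 24 16 p.1 ∧ ldot p.2 y = τ}) ((lv bU0, lv bA0), lv bX275) (mdC τ) := by
  intro τ hτ h
  simp only [mdVals, Finset.mem_insert, Finset.mem_singleton] at hτ
  rcases hτ with rfl | rfl | rfl
  · exact absurd rfl h
  · exact cls3_conv c112_cls
  · exact cls3_conv c162_cls

/-- a second vector of the class of 2025 -/
def bZ2025 : ℕ := 0x900090009000700070009000700070007000900070009000900070009000700090009000700070007000b00090009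

theorem bZ2025_ok : cstOK bZ2025 = true := by decide +kernel

theorem bZ2025_mem : lv bZ2025 ∈ C2 0 16 (lv bA0, lv bW0) :=
  ⟨mem_L2_cst bZ2025_ok (by decide +kernel), by
    show ldot (lv bA0) (lv bZ2025) = 0
    rw [ldot_cst bA0_ok bZ2025_ok 10752 (by decide +kernel)]; norm_num, by
    show ldot (lv bW0) (lv bZ2025) = 16
    rw [ldot_cst bW0_ok bZ2025_ok 10768 (by decide +kernel)]; norm_num⟩

theorem dX275_X : ldot (lv bX275) (lv bX2025) = 8 := by
  rw [ldot_cst bX275_ok bX2025_ok 10760 (by decide +kernel)]; norm_num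

theorem dX275_Z : ldot (lv bX275) (lv bZ2025) = 16 := by
  rw [ldot_cst bX275_ok bZ2025_ok 10768 (by decide +kernel)]; norm_num

section
variable (hCo0 : Nat.card ↥Co0 = 8315553613086720000)
include hCo0

theorem simple_mcl : IsSimpleGroup ↥(stabilizer ↥Co0 (lv bA0, lv bW0)) := by
  have hfin := finite_co0 hCo0
  have hs : IsSimpleGroup ↥(stabilizer ↥(stabilizer ↥Co0 (lv bA0, lv bW0)) (lv bX2025)) :=
    (stabStabEquiv _ (lv bA0, lv bW0) rfl (lv bX2025)).isSimpleGroup_congr.2 (simple_m22b hCo0)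
  have hprim : ∀ N : Subgroup ↥(stabilizer ↥Co0 (lv bA0, lv bW0)), N.Normal →
      orbit N (lv bX2025) = {lv bX2025} ∨
        orbit N (lv bX2025) = orbit ↥(stabilizer ↥Co0 (lv bA0, lv bW0)) (lv bX2025) := by
    intro N hN
    exact prim_concl (C2 0 16) (lv bA0, lv bW0) (lv bX2025) 2025 c2025_cls (C2_sub _ _) bX2025_mem mcVals mcC
      (by decide) mc_cls (by decide) (by decide) ⟨1, one_smul _ _⟩ bX2025_mem _ rfl N
  have horb0 : orbit ↥(stabilizer ↥Co0 (lv bA0, lv bW0)) (lv bX2025) = C2 0 16 (lv bA0, lv bW0) :=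
    c2025_cls.orbit_eq ⟨1, one_smul _ _⟩ bX2025_mem
  have horb : (orbit ↥(stabilizer ↥Co0 (lv bA0, lv bW0)) (lv bX2025)).ncard = 2025 := by
    rw [horb0, c2025_cls.count]
  refine simple_of_primitive (lv bX2025) hs hprim ?_ ?_
  · exact move_of_class (C2 0 16) (lv bA0, lv bW0) (lv bX2025) 2025 c2025_cls bX2025_mem 0 330 (by norm_num)
      (cls3_conv c330_cls) ⟨1, one_smul _ _⟩ bX2025_mem _ rfl
  · intro N hN hbot hcard
    rw [horb] at hcard
    -- the action on the 275 vectors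
    have h275 := prim_concl (C2 24 16) (lv bU0, lv bA0) (lv bX275) 275 c275_cls (C2_sub _ _) bX275_mem mdVals mdC
      (by decide) md_cls (by decide) (by decide) ⟨1, one_smul _ _⟩ bX275_mem _ stab_eq_mcl.symm N
    have h3 := card_eq_orbit_mul N (lv bX275)
    have hfix : orbit N (lv bX275) = {lv bX275} := by
      rcases h275 with h | h
      · exact h
      · exfalso
        have e : (orbit ↥(stabilizer ↥Co0 (lv bA0, lv bW0)) (lv bX275)).ncard = 275 := by
          rw [← stab_eq_mcl, c275_cls.orbit_eq ⟨1, one_smul _ _⟩ bX275_mem, c275_cls.count]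
        rw [h, e, hcard] at h3
        omega
    have htr : orbit N (lv bX2025) = C2 0 16 (lv bA0, lv bW0) := by
      rcases hprim N hN with h | h
      · exfalso
        have h4 := card_eq_orbit_mul N (lv bX2025)
        rw [hbot, Subgroup.card_bot, one_mul, h, Set.ncard_singleton, hcard] at h4
        omega
      · rw [h, horb0]
    have hz : lv bZ2025 ∈ orbit N (lv bX2025) := by rw [htr]; exact bZ2025_mem
    obtain ⟨n, hn⟩ := hz
    have hn' : ((n : ↥(stabilizer ↥Co0 (lv bA0, lv bW0))) : ↥Co0) • lv bX2025 = lv bZ2025 := hn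
    have hnx : ((n : ↥(stabilizer ↥Co0 (lv bA0, lv bW0))) : ↥Co0) • lv bX275 = lv bX275 := by
      have : n • lv bX275 ∈ orbit N (lv bX275) := ⟨n, rfl⟩
      rw [hfix] at this
      exact this
    have := ldot_smul ((n : ↥(stabilizer ↥Co0 (lv bA0, lv bW0))) : ↥Co0) (lv bX275) (lv bX2025)
    rw [hn', hnx, dX275_X, dX275_Z] at this
    omega

theorem isMcL_stab {v w : ↥leechLattice} (hv : sqNorm (v : GolayPt → ℤ) = 32) (hw : sqNorm (w : GolayPt → ℤ) = 32)
    (hvw : dotInt (v : GolayPt → ℤ) (w : GolayPt → ℤ) = -8) :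
    IsMcL ↥(stabilizer ↥Co0 v ⊓ stabilizer ↥Co0 w) := by
  rw [stab_prod]
  have hb := to_vw8 (v := v) (w := w) hv ⟨hw, hvw⟩
  exact ⟨simple_stab_conj hb (simple_mcl hCo0), by rw [card_stab_conj hb, card_mcl hCo0]⟩

end

end Cfsg.Agent.Lib.Helper33
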